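import Cfsg.Agent.CharExt.InvConstituent
import Cfsg.Agent.GlauberCorr.HomMult
import Cfsg.Agent.Char.Linear
import Cfsg.Agent.S0856

/-!
# Small facts used for the Isaacs correspondence
-/

set_option autoImplicit false
set_option linter.style.haveILetI false
set_option linter.unusedSectionVars false

namespace Cfsg.Agent.IsaacsCorr

open Cfsg Cfsg.Agent Subgroup
open scoped Classical

universe u

/-- A character over an extensible character is a multiple of the extension by a character
constant on the cosets. -/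
theorem exists_mul_of_over {G : Type u} [Group G] [Fintype G] (N : Subgroup G) [hN : N.Normal]
    [Fintype N] {χ : G → ℂ} (hχ : IsIrrCharacter G χ)
    (hχN : IsIrrCharacter N (fun n : N => χ n)) {η : G → ℂ} (hη : IsIrrCharacter G η)
    (h : classInner (fun n : N => η n) (fun n : N => χ n) ≠ 0) :
    ∃ β : G → ℂ, IsIrrCharacter G β ∧ (∀ (n : N) g, β ((n : G) * g) = β g) ∧ η = β * χ := by
  have hone : (fun _ : N => (1 : ℂ)) * (fun n : N => χ n) = fun n : N => χ n := by
    funext n; simp
  have hb := S0856.result N (fun _ : N => (1 : ℂ)) (fun n : N => χ n)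
    Char.isIrrCharacter_const_one hχN (fun _ _ => rfl)
    (fun g n => Char.irr_isClassFunction hχ n g) (by rw [hone]; exact hχN) χ hχ fun n => rfl
  obtain ⟨β, ⟨hβ, hβ1⟩, hβe⟩ := hb.surjOn (show η ∈ _ from ⟨hη, by
    rw [hone, CharInd.classInner_indFun_left N _ (Char.irr_isClassFunction hη)]
    intro h0
    apply h
    rw [← CharInd.classInner_swap, h0, map_zero]⟩)
  exact ⟨β, hβ, CharExt.inv_of_constituent N hβ hβ1, hβe.symm⟩

/-- An automorphism of period `n` moving `y` by a fixed factor of order prime to `n` fixes it. -/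
theorem eq_one_of_aut {G : Type u} [Group G] (a : MulAut G) {n M : ℕ} (hn : a ^ n = 1)
    (hcop : M.Coprime n) {y c : G} (hy : a y = c * y) (hc : a c = c) (hM : c ^ M = 1) : c = 1 := by
  have hk : ∀ k : ℕ, (a ^ k) y = c ^ k * y := by
    intro k
    induction k with
    | zero => simp
    | succ k ih =>
      rw [pow_succ', MulAut.mul_apply, ih, map_mul, map_pow, hc, hy, ← mul_assoc, ← pow_succ]
  have h1 : c ^ n = 1 := by
    have := hk n
    rw [hn, MulAut.one_apply] at this
    exact mul_eq_right.1 this.symm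
  have h2 : orderOf c ∣ Nat.gcd M n := Nat.dvd_gcd (orderOf_dvd_of_pow_eq_one hM)
    (orderOf_dvd_of_pow_eq_one h1)
  rw [Nat.Coprime.gcd_eq_one hcop, Nat.dvd_one, orderOf_eq_one_iff] at h2
  exact h2

/-- An element with a power in a subgroup, of exponent prime to its order, lies in it. -/
theorem mem_of_pow_mem {G : Type u} [Group G] [Finite G] (H : Subgroup G) {x : G} {n : ℕ}
    (hcop : (orderOf x).Coprime n) (h : x ^ n ∈ H) : x ∈ H := by
  obtain ⟨m, hm⟩ := exists_pow_eq_self_of_coprime hcop.symm
  exact hm ▸ H.pow_mem h m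

/-- Root of unity cancellation. -/
theorem eq_one_of_pow {M : Type*} [Monoid M] {x : M} {m n : ℕ} (hcop : m.Coprime n)
    (hm : x ^ m = 1) (hn : x ^ n = 1) : x = 1 := by
  have h2 : orderOf x ∣ Nat.gcd m n :=
    Nat.dvd_gcd (orderOf_dvd_of_pow_eq_one hm) (orderOf_dvd_of_pow_eq_one hn)
  rwa [Nat.Coprime.gcd_eq_one hcop, Nat.dvd_one, orderOf_eq_one_iff] at h2

/-- If every element has exponent `M` then the order is prime to whatever `M` is prime to. -/
theorem card_coprime_of_pow {G : Type u} [Group G] [Finite G] {M n : ℕ}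
    (h : ∀ x : G, x ^ M = 1) (hcop : M.Coprime n) : (Nat.card G).Coprime n := by
  refine Nat.coprime_of_dvd fun q hq hqG hqn => ?_
  haveI := Fact.mk hq
  obtain ⟨x, hx⟩ := exists_prime_orderOf_dvd_card' q hqG
  have h1 : q ∣ Nat.gcd M n := Nat.dvd_gcd (hx ▸ orderOf_dvd_of_pow_eq_one (h x)) hqn
  rw [Nat.Coprime.gcd_eq_one hcop, Nat.dvd_one] at h1
  exact hq.one_lt.ne' h1

/-- A character with nothing over `θ` below is orthogonal to those lying over `θ`. -/
theorem classInner_eq_zero_of_res {H : Type u} [Group H] [Fintype H] {N : Type u} [Group N]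
    [Fintype N] (f : N →* H) {A : H → ℂ} (hA : IsCharacter H A) (ψ : IrrCharacter H)
    (θ : IrrCharacter N) (h1 : classInner (fun n : N => A (f n)) (θ : N → ℂ) = 0)
    (h2 : classInner (fun n : N => (ψ : H → ℂ) (f n)) (θ : N → ℂ) ≠ 0) :
    classInner A (ψ : H → ℂ) = 0 :=
  by_contradiction fun h => CharExt.inner_ne_zero_trans f hA ψ θ h h2 h1

theorem classInner_comp_mulEquiv {G H : Type u} [Group G] [Group H] [Fintype G] [Fintype H]
    (e : H ≃* G) (a b : G → ℂ) :
    classInner (fun h => a (e h)) (fun h => b (e h)) = classInner a b := by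
  unfold classInner
  rw [Nat.card_congr e.toEquiv]
  congr 1
  exact Fintype.sum_equiv e.toEquiv _ _ fun _ => rfl

end Cfsg.Agent.IsaacsCorr
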