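import Cfsg.Agent.IsaacsCorr.Defs
import Cfsg.Agent.OddChar.Inertia
import Cfsg.Agent.S0854

/-!
# The Clifford correspondence inside a subgroup, with operators

Everything is stated for subgroups `A` of an ambient group containing the normal subgroup `L`.
-/

set_option autoImplicit false
set_option linter.style.haveILetI false
set_option linter.unusedSectionVars false

namespace Cfsg.Agent.IsaacsCorr

open Cfsg Cfsg.Agent Subgroup
open scoped Classical

universe u

variable {Γ : Type u} [Group Γ] [Fintype Γ]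

/-- Induction commutes with automorphisms preserving the subgroup. -/
theorem indFun_comp_aut {P : Type u} [Group P] [Fintype P] (T : Subgroup P) (σ : P ≃* P)
    (hT : ∀ x, σ x ∈ T ↔ x ∈ T) (θ : T → ℂ) (g : P) :
    indFun T (fun t : T => θ ⟨σ t, (hT t).2 t.2⟩) g = indFun T θ (σ g) := by
  rw [CharInd.indFun_apply, CharInd.indFun_apply]
  congr 1
  refine Fintype.sum_equiv σ.toEquiv _ _ fun x => ?_
  show extendByZero T _ _ = extendByZero T θ ((σ x)⁻¹ * σ g * σ x)
  rw [← map_inv, ← map_mul, ← map_mul]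
  by_cases h : x⁻¹ * g * x ∈ T
  · rw [CharInd.extendByZero_mem T _ h, CharInd.extendByZero_mem T θ ((hT _).2 h)]
  · rw [CharInd.extendByZero_notMem T _ h,
      CharInd.extendByZero_notMem T θ fun h' => h ((hT _).1 h')]

theorem over_def {L A : Subgroup Γ} [Fintype L] (hLA : L ≤ A) (f : A → ℂ) (φ : L → ℂ) :
    Over hLA f φ ↔ classInner (fun n : L => f (inclusion hLA n)) φ ≠ 0 := Iff.rfl

variable (L : Subgroup Γ) [hL : L.Normal] [Fintype L]

theorem sinv_iff {S : Subgroup Γ} (φ : L → ℂ) :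
    SInv S L φ ↔ ∀ s ∈ S, s ∈ CharExt.inertia L φ := by
  constructor
  · intro h s hs
    rw [CharExt.mem_inertia]
    funext n
    exact h s hs n _ rfl
  · intro h s hs g g' hg
    have := congrFun (CharExt.mem_inertia.1 (h s hs)) g
    rw [CharInd.conjChar_apply] at this
    exact (congrArg φ (Subtype.ext hg)).trans this

/-- Constituents on `L` inside a subgroup `A` are conjugate by `A`. -/
theorem exists_conj_of_over {A : Subgroup Γ} [Fintype A] (hLA : L ≤ A) (χ : IrrCharacter A)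
    {φ ξ : L → ℂ} (hφ : IsIrrCharacter L φ) (hξ : IsIrrCharacter L ξ)
    (h1 : Over hLA (χ : A → ℂ) φ) (h2 : Over hLA (χ : A → ℂ) ξ) :
    ∃ x ∈ A, ξ = CharInd.conjChar L x φ := by
  let N := L.subgroupOf A
  letI := Fintype.ofFinite N
  let e : N ≃* L := Subgroup.subgroupOfEquivOfLe hLA
  have he : ∀ f : L → ℂ, classInner (fun n : N => (χ : A → ℂ) n) (fun n => f (e n)) =
      classInner (fun n : L => (χ : A → ℂ) ⟨n, hLA n.2⟩) f := fun f =>
    OddChar.classInner_subgroupOf L A hLA (χ : A → ℂ) f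
  obtain ⟨x, hx⟩ := (CharInd.mem_conjClass N).1 (CharExt.mem_conjClass_of_constituent N χ.2
    (φ := fun n => φ (e n)) (ξ := fun n => ξ (e n))
    (Char.isIrrCharacter_comp_mulEquiv hφ e) (Char.isIrrCharacter_comp_mulEquiv hξ e)
    (by rw [he]; exact h1) (by rw [he]; exact h2))
  refine ⟨x, x.2, funext fun n => ?_⟩
  have := congrFun hx (e.symm n)
  rw [e.apply_symm_apply] at this
  rw [this]
  rfl

theorem over_conj {A : Subgroup Γ} [Fintype A] (hLA : L ≤ A) {f : A → ℂ}
    (hf : IsClassFunction A f) {φ : L → ℂ} (h : Over hLA f φ) {x : Γ} (hx : x ∈ A) :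
    Over hLA f (CharInd.conjChar L x φ) := by
  rw [over_def] at h ⊢
  have e : (fun n : L => f (inclusion hLA n)) =
      CharInd.conjChar L x (fun n : L => f (inclusion hLA n)) := by
    funext n
    exact (hf (inclusion hLA n) ⟨x, hx⟩).symm
  rw [e, CharInd.classInner_conjChar]
  exact h

/-- A constituent on `L` of an invariant character is invariant when the operators fix `A`
modulo `L`. -/
theorem sinv_of_over {A S : Subgroup Γ} [Fintype A] (hLA : L ≤ A)
    (hA : ∀ s ∈ S, ∀ x ∈ A, s * x * s⁻¹ * x⁻¹ ∈ L)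
    (hcop : (Nat.card A).Coprime (Nat.card S)) (χ : IrrCharacter A)
    (hinv : SInv S A (χ : A → ℂ)) (φ : IrrCharacter L) (h : Over hLA (χ : A → ℂ) (φ : L → ℂ)) :
    SInv S L (φ : L → ℂ) := by
  rw [sinv_iff]
  intro s hs
  let I := CharExt.inertia L (φ : L → ℂ)
  have hconj : ∀ n : L, s * n * s⁻¹ ∈ L := fun n => hL.conj_mem n n.2 s
  have h' : Over hLA (χ : A → ℂ) (CharInd.conjChar L s (φ : L → ℂ)) := by
    rw [over_def] at h ⊢
    have e : (fun n : L => (χ : A → ℂ) (inclusion hLA n)) =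
        CharInd.conjChar L s (fun n : L => (χ : A → ℂ) (inclusion hLA n)) := by
      funext n
      exact (hinv s hs (inclusion hLA n) (inclusion hLA ⟨_, hconj n⟩) rfl).symm
    rw [e, CharInd.classInner_conjChar]
    exact h
  obtain ⟨x, hx, he⟩ := exists_conj_of_over L hLA χ φ.2 (CharInd.conjChar_irr L s φ.2) h h'
  have hl : ∀ y ∈ A, ∀ f : L → ℂ, IsClassFunction L f →
      CharInd.conjChar L (y * s) f = CharInd.conjChar L (s * y) f := by
    intro y hy f hf
    have h1 : y * s = (s * y * s⁻¹ * y⁻¹)⁻¹ * (s * y) := by group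
    rw [h1, CharInd.conjChar_mul,
      CharInd.conjChar_isClassFunction_mem L hf ⟨_, L.inv_mem (hA s hs y hy)⟩]
  have hk : ∀ k : ℕ, CharInd.conjChar L (s ^ k) (φ : L → ℂ) =
      CharInd.conjChar L (x ^ k) (φ : L → ℂ) := by
    intro k
    induction k with
    | zero => rw [pow_zero, pow_zero]
    | succ k ih =>
      rw [pow_succ, CharInd.conjChar_mul, ih, ← CharInd.conjChar_mul,
        hl _ (A.pow_mem hx k) _ (Char.irr_isClassFunction φ.2), CharInd.conjChar_mul, he,
        ← CharInd.conjChar_mul, ← pow_succ']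
  have h2 : x ^ Nat.card S ∈ I := by
    show CharInd.conjChar L _ _ = _
    rw [← hk, show s ^ Nat.card S = 1 from
      congrArg Subtype.val (pow_card_eq_one' (x := (⟨s, hs⟩ : S))), CharInd.conjChar_one]
  have h3 : x ∈ I := mem_of_pow_mem I
    (hcop.coprime_dvd_left (Subgroup.orderOf_dvd_natCard A hx)) h2
  show CharInd.conjChar L s _ = _
  rw [he]; exact h3

section Inertia

variable (φ : IrrCharacter L) (A : Subgroup Γ) [Fintype A] (hLA : L ≤ A)

/-- The part of the inertia group inside `A`. -/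
def stab : Subgroup A := (CharExt.inertia L (φ : L → ℂ)).subgroupOf A

variable [Fintype (stab L φ A)]

/-- Lying over `φ`, for functions on the inertia part. -/
def OverT (f : stab L φ A → ℂ) : Prop :=
  classInner (fun n : L => f ⟨⟨n, hLA n.2⟩,
    CharExt.le_inertia L (Char.irr_isClassFunction φ.2) n.2⟩) (φ : L → ℂ) ≠ 0

theorem clifford_ind {ξ : stab L φ A → ℂ} (hξ : IsIrrCharacter (stab L φ A) ξ)
    (hov : OverT L φ A hLA ξ) :
    IsIrrCharacter A (indFun (stab L φ A) ξ) ∧ Over hLA (indFun (stab L φ A) ξ) (φ : L → ℂ) ∧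
      ∃ D : stab L φ A → ℂ, IsCharacter (stab L φ A) D ∧
        (∀ t : stab L φ A, indFun (stab L φ A) ξ (t : A) = ξ t + D t) ∧
        classInner (fun n : L => D ⟨⟨n, hLA n.2⟩,
          CharExt.le_inertia L (Char.irr_isClassFunction φ.2) n.2⟩) (φ : L → ℂ) = 0 := by
  let N := L.subgroupOf A
  letI := Fintype.ofFinite N
  let T := stab L φ A
  let e : N ≃* L := Subgroup.subgroupOfEquivOfLe hLA
  have hθ : IsIrrCharacter N (fun n => (φ : L → ℂ) (e n)) :=
    Char.isIrrCharacter_comp_mulEquiv φ.2 e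
  have hNT : N ≤ T := fun n hn => CharExt.le_inertia L (Char.irr_isClassFunction φ.2) hn
  have hTchar : ∀ g : A, g ∈ T ↔ ∀ h : N, (φ : L → ℂ) (e ⟨g * h * g⁻¹,
      (inferInstance : N.Normal).conj_mem h h.2 g⟩) = (φ : L → ℂ) (e h) := fun g =>
    ⟨fun h n => congrFun h (e n), fun h => funext fun n => by
      have := h (e.symm n)
      rw [e.apply_symm_apply] at this
      exact this⟩
  have hbr : ∀ F : A → ℂ, classInner (fun n : N => F n) (fun n => (φ : L → ℂ) (e n)) =
      classInner (fun n : L => F ⟨n, hLA n.2⟩) (φ : L → ℂ) := fun F =>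
    OddChar.classInner_subgroupOf L A hLA F φ
  have hbrT : ∀ F : T → ℂ, classInner (fun n : N => F ⟨n, hNT n.2⟩) (fun n => (φ : L → ℂ) (e n)) =
      classInner (fun n : L => F ⟨⟨n, hLA n.2⟩,
        CharExt.le_inertia L (Char.irr_isClassFunction φ.2) n.2⟩) (φ : L → ℂ) := fun F => by
    rw [← classInner_comp_mulEquiv e]
    rfl
  have hc : classInner (fun n : N => ξ ⟨n, hNT n.2⟩) (fun n => (φ : L → ℂ) (e n)) ≠ 0 := by
    rw [hbrT]; exact hov
  obtain ⟨k, hk0, hk, hres⟩ := OddChar.res_over N T hNT hθ (fun g hg => (hTchar g).1 hg) hξ hc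
  have hind := OddChar.indFun_inertia_irr N T hNT hθ hTchar hξ hc
  have h1 := OddChar.classInner_ind_res N T hNT hθ hTchar hres
  refine ⟨hind, ?_, ?_⟩
  · show classInner _ _ ≠ 0
    rw [← hbr (indFun T ξ), h1]
    exact_mod_cast hk0.ne'
  have hself : classInner (fun t : T => indFun T ξ t) ξ = ((1 : ℕ) : ℂ) := by
    rw [← CharInd.classInner_indFun_right T ξ (CharInd.indFun_isClassFunction T ξ),
      Char.classInner_irr_self hind, Nat.cast_one]
  refine ⟨(fun t : T => indFun T ξ t) - ξ,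
    Char.isCharacter_sub_constituent (ψ := ⟨ξ, hξ⟩)
      (CharInd.isCharacter_res T (Char.isCharacter_of_irr hind)) one_pos hself,
    fun t => by rw [Pi.sub_apply, add_sub_cancel], ?_⟩
  rw [← hbrT]
  show classInner ((fun n : N => indFun T ξ (n : A)) - fun n : N => ξ ⟨n, hNT n.2⟩) _ = 0
  rw [Char.classInner_sub_left, h1, hk, sub_self]

theorem clifford_surj (χ : IrrCharacter A) (hov : Over hLA (χ : A → ℂ) (φ : L → ℂ)) :
    ∃ ξ : IrrCharacter (stab L φ A), OverT L φ A hLA (ξ : stab L φ A → ℂ) ∧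
      indFun (stab L φ A) (ξ : stab L φ A → ℂ) = (χ : A → ℂ) := by
  let N := L.subgroupOf A
  letI := Fintype.ofFinite N
  let e : N ≃* L := Subgroup.subgroupOfEquivOfLe hLA
  obtain ⟨ξ, hξ, hind, hinner⟩ := S0854.result N (fun n => (φ : L → ℂ) (e n))
    (Char.isIrrCharacter_comp_mulEquiv φ.2 e) (stab L φ A)
    (fun g => ⟨fun h n => congrFun h (e n), fun h => funext fun n => by
      have := h (e.symm n)
      rw [e.apply_symm_apply] at this
      exact this⟩)
    (fun n hn => CharExt.le_inertia L (Char.irr_isClassFunction φ.2) hn) (χ : A → ℂ) χ.2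
    ((OddChar.classInner_subgroupOf L A hLA (χ : A → ℂ) (φ : L → ℂ)).trans_ne hov)
  refine ⟨⟨ξ, hξ⟩, ?_, hind⟩
  show classInner _ _ ≠ 0
  rw [← classInner_comp_mulEquiv e]
  refine ne_of_eq_of_ne ?_ (a := _) (b := classInner (fun n : L =>
    (χ : A → ℂ) ⟨n, hLA n.2⟩) (φ : L → ℂ)) hov
  rw [← OddChar.classInner_subgroupOf L A hLA (χ : A → ℂ) φ]
  exact hinner

theorem clifford_inj (ξ ξ' : IrrCharacter (stab L φ A))
    (h : OverT L φ A hLA (ξ : stab L φ A → ℂ)) (h' : OverT L φ A hLA (ξ' : stab L φ A → ℂ))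
    (heq : indFun (stab L φ A) (ξ : stab L φ A → ℂ) = indFun (stab L φ A) (ξ' : stab L φ A → ℂ)) :
    ξ = ξ' := by
  let N := L.subgroupOf A
  letI := Fintype.ofFinite N
  let T := stab L φ A
  let e : N ≃* L := Subgroup.subgroupOfEquivOfLe hLA
  have hNT : N ≤ T := fun n hn => CharExt.le_inertia L (Char.irr_isClassFunction φ.2) hn
  have hbr : ∀ F : T → ℂ, classInner (fun n : N => F ⟨n, hNT n.2⟩) (fun n => (φ : L → ℂ) (e n)) =
      classInner (fun n : L => F ⟨⟨n, hLA n.2⟩,
        CharExt.le_inertia L (Char.irr_isClassFunction φ.2) n.2⟩) (φ : L → ℂ) := fun F => by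
    rw [← classInner_comp_mulEquiv e]
    rfl
  have h1 := OddChar.classInner_indFun_inertia N T hNT
    (show IsIrrCharacter N (fun n => (φ : L → ℂ) (e n)) from
      Char.isIrrCharacter_comp_mulEquiv φ.2 e)
    (fun g => ⟨fun h n => congrFun h (e n), fun h => funext fun n => by
      have := h (e.symm n)
      rw [e.apply_symm_apply] at this
      exact this⟩) ξ.2 ξ'.2 (by rw [hbr]; exact h) (by rw [hbr]; exact h')
  by_contra hne
  have h2 := (clifford_ind L φ A hLA ξ.2 h).1
  rw [← heq, Char.classInner_irr_self h2,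
    Char.classInner_irr_ne ξ.2 ξ'.2 (fun e => hne (Subtype.ext e))] at h1
  exact one_ne_zero h1

/-- Invariance of a function on the inertia part. -/
def SInvT (S : Subgroup Γ) (f : stab L φ A → ℂ) : Prop :=
  ∀ s ∈ S, ∀ x x' : stab L φ A, ((x' : A) : Γ) = s * ((x : A) : Γ) * s⁻¹ → f x' = f x

theorem sinv_ind {S : Subgroup Γ} (hSA : ∀ s ∈ S, ∀ x ∈ A, s * x * s⁻¹ ∈ A)
    (hφ : SInv S L (φ : L → ℂ)) (ξ : IrrCharacter (stab L φ A))
    (hov : OverT L φ A hLA (ξ : stab L φ A → ℂ)) :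
    SInv S A (indFun (stab L φ A) (ξ : stab L φ A → ℂ)) ↔ SInvT L φ A S (ξ : stab L φ A → ℂ) := by
  have hsI := (sinv_iff L (φ : L → ℂ)).1 hφ
  have hback : ∀ s ∈ S, ∀ x ∈ A, s⁻¹ * x * s ∈ A := fun s hs x hx => by
    simpa using hSA s⁻¹ (S.inv_mem hs) x hx
  let σ : ∀ s ∈ S, A ≃* A := fun s hs =>
    { toFun := fun x => ⟨s * x * s⁻¹, hSA s hs x x.2⟩
      invFun := fun x => ⟨s⁻¹ * x * s, hback s hs x x.2⟩
      left_inv := fun x => Subtype.ext (by simp [mul_assoc])
      right_inv := fun x => Subtype.ext (by simp [mul_assoc])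
      map_mul' := fun x y => Subtype.ext (by simp [mul_assoc]) }
  have hσval : ∀ s hs (x : A), ((σ s hs x : A) : Γ) = s * x * s⁻¹ := fun _ _ _ => rfl
  have hσT : ∀ s hs (x : A), σ s hs x ∈ stab L φ A ↔ x ∈ stab L φ A := fun s hs x =>
    (Subgroup.mul_mem_cancel_right _ (inv_mem (hsI s hs))).trans
      (Subgroup.mul_mem_cancel_left _ (hsI s hs))
  constructor
  · intro hinv s hs x x' hxx
    let ξ' : IrrCharacter (stab L φ A) := ⟨fun t => (ξ : stab L φ A → ℂ)
      ⟨σ s hs t, (hσT s hs t).2 t.2⟩, CharInd.irr_comp_surjective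
      (MonoidHom.mk' (fun t : stab L φ A => (⟨σ s hs t, (hσT s hs t).2 t.2⟩ : stab L φ A))
        fun a b => Subtype.ext (map_mul (σ s hs) (a : A) (b : A)))
      (fun t => ⟨⟨(σ s hs).symm t, (hσT s hs _).1
        (((σ s hs).apply_symm_apply (t : A)).symm ▸ t.2)⟩,
        Subtype.ext ((σ s hs).apply_symm_apply (t : A))⟩) ξ.2⟩
    have hov' : OverT L φ A hLA (ξ' : stab L φ A → ℂ) := by
      show classInner _ _ ≠ 0
      have e : CharInd.conjChar L s (φ : L → ℂ) = (φ : L → ℂ) := hsI s hs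
      rw [← e]
      exact (CharInd.classInner_conjChar L s (fun n : L => (ξ : stab L φ A → ℂ)
        ⟨⟨n, hLA n.2⟩, CharExt.le_inertia L (Char.irr_isClassFunction φ.2) n.2⟩)
        (φ : L → ℂ)).trans_ne hov
    have h1 : indFun (stab L φ A) (ξ' : stab L φ A → ℂ) =
        indFun (stab L φ A) (ξ : stab L φ A → ℂ) := by
      funext g
      rw [show indFun (stab L φ A) (ξ' : stab L φ A → ℂ) g = _ from
        indFun_comp_aut _ (σ s hs) (hσT s hs) (ξ : stab L φ A → ℂ) g]
      exact hinv s hs g _ (hσval s hs g)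
    have h2 := congrFun (congrArg Subtype.val (clifford_inj L φ A hLA ξ' ξ hov' hov h1)) x
    rw [← h2]
    exact congrArg _ (Subtype.ext (Subtype.ext hxx))
  · intro hinv s hs g g' hgg
    rw [show g' = σ s hs g from Subtype.ext hgg,
      ← indFun_comp_aut _ (σ s hs) (hσT s hs) (ξ : stab L φ A → ℂ) g]
    refine congrArg (fun F => indFun (stab L φ A) F g) (funext fun t => ?_)
    exact hinv s hs t _ (hσval s hs _)

end Inertia

end Cfsg.Agent.IsaacsCorr
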