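import Mathlib
import Cfsg.Agent.CharDeep.Cover
import Cfsg.Agent.Char.Kernel

/-!
# A finite central cover, with the exponent of its kernel

The construction of `CharDeep.exists_cover`, recording that the kernel has exponent dividing
`|N| ^ 2`.
-/

set_option autoImplicit false
set_option linter.style.haveILetI false

noncomputable section

namespace Cfsg.Agent.IsaacsCorr

open Module Cfsg.Agent.CharDeep

universe u

variable {G : Type u} [Group G] [Finite G]

theorem exists_cover' (N : Subgroup G) [hN : N.Normal] {θ : N → ℂ} (hθ : Cfsg.IsIrrCharacter N θ)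
    (hinv : ∀ (g : G) (n : N), θ (CharExt.cj N g n) = θ n) :
    ∃ (X : Type u) (_ : Group X) (_ : Fintype X) (f : X →* G) (N' : Subgroup X) (δ : X → ℂ),
      Function.Surjective f ∧ N'.Normal ∧ N'.map f = N ∧ (∀ z, f z = 1 → ∀ y, z * y = y * z) ∧
      (∀ z ∈ N', f z = 1 → z = 1) ∧ Cfsg.IsIrrCharacter X δ ∧
      Cfsg.IsIrrCharacter N' (fun n : N' => δ n) ∧
      (∀ (x : N') (h : f x ∈ N), δ x = θ ⟨f x, h⟩) ∧
      ∀ z, f z = 1 → z ^ (Nat.card N * Nat.card N) = 1 := by
  classical
  obtain ⟨k, ρ, hρ, rfl⟩ := hθ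
  haveI := hρ
  haveI : Nontrivial (Fin k → ℂ) := Char.nontrivial_of_isIrreducible ρ
  have hk : 0 < finrank ℂ (Fin k → ℂ) := finrank_pos
  let det' : interGroup N ρ →* ℂ :=
    (LinearMap.det (M := Fin k → ℂ) (A := ℂ)).comp ((Units.coeHom _).comp (interOp N ρ))
  let X : Subgroup (interGroup N ρ) :=
    MonoidHom.ker ((powMonoidHom (Nat.card N)).comp det')
  have hmem : ∀ x, x ∈ X ↔ det' x ^ Nat.card N = 1 := fun x => Iff.rfl
  let f : X →* G := (interProj N ρ).comp X.subtype
  have hsurj : Function.Surjective f := by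
    intro g
    obtain ⟨x, hx⟩ := interOneProj_surjective N ρ hinv g
    refine ⟨⟨x, ?_⟩, hx⟩
    rw [hmem, show det' x = 1 from (mem_interOne N ρ).1 x.2, one_pow]
  haveI : Finite f.ker := by
    have key : ∀ x : f.ker, ∃ a : ℂˣ, ((x : X) : interGroup N ρ) = interScalar N ρ a :=
      fun x => exists_scalar_of_proj_eq_one N ρ x.2
    choose a ha using key
    have hroot : ∀ x, (a x : ℂ) ∈
        Polynomial.nthRootsFinset (finrank ℂ (Fin k → ℂ) * Nat.card N) (1 : ℂ) := by
      intro x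
      have h1 := (hmem _).1 (x : X).2
      rw [ha] at h1
      simp only [det', MonoidHom.comp_apply, interOp_scalar, Units.coeHom_apply, scalarUnit_val,
        LinearMap.det_smul, map_one, mul_one, ← pow_mul] at h1
      exact (Polynomial.mem_nthRootsFinset (Nat.mul_pos hk Nat.card_pos) 1).2 h1
    refine Finite.of_injective (fun x => (⟨(a x : ℂ), hroot x⟩ : {z // z ∈
      Polynomial.nthRootsFinset (finrank ℂ (Fin k → ℂ) * Nat.card N) (1 : ℂ)})) fun x y h => ?_
    apply Subtype.ext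
    apply Subtype.ext
    rw [ha, ha]
    exact congrArg _ (Units.ext (congrArg Subtype.val h))
  haveI : Finite (X ⧸ f.ker) :=
    Finite.of_equiv G (QuotientGroup.quotientKerEquivOfSurjective _ hsurj).toEquiv.symm
  haveI : Finite X := Finite.of_equiv _ (Subgroup.groupEquivQuotientProdSubgroup (s := f.ker)).symm
  have hN' : ∀ n : N, interNormal N ρ n ∈ X := fun n => by
    rw [hmem]
    simp only [det', MonoidHom.comp_apply, Units.coeHom_apply, interOp_normal]
    rw [← map_pow, ← map_pow, pow_card_eq_one', map_one, map_one]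
  let j : N →* X := (interNormal N ρ).codRestrict X hN'
  have hfj : ∀ n, f (j n) = n := fun n => interProj_normal N ρ n
  let σ : Representation ℂ X (Fin k → ℂ) :=
    (Units.coeHom _).comp ((interOp N ρ).comp X.subtype)
  have hσj : ∀ n, σ (j n) = ρ n := fun n => interOp_normal N ρ n
  obtain ⟨hne, hforall⟩ := (Char.isIrreducible_iff_forall ρ).1 hρ
  have hirr : σ.IsIrreducible := (Char.isIrreducible_iff_forall σ).2
    ⟨hne, fun p hp => hforall p fun n v hv => by rw [← hσj]; exact hp (j n) v hv⟩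
  have hirr' : Representation.IsIrreducible
      (σ.comp j.range.subtype : Representation ℂ j.range (Fin k → ℂ)) :=
    (Char.isIrreducible_iff_forall _).2
      ⟨hne, fun p hp => hforall p fun n v hv => by
        rw [← hσj]; exact hp ⟨j n, n, rfl⟩ v hv⟩
  have hexp : ∀ z : X, f z = 1 → z ^ (Nat.card N * Nat.card N) = 1 := by
    intro z hz
    obtain ⟨a, ha⟩ := exists_scalar_of_proj_eq_one N ρ (x := (z : interGroup N ρ)) hz
    have h1 := (hmem _).1 z.2
    rw [ha] at h1
    simp only [det', MonoidHom.comp_apply, interOp_scalar, Units.coeHom_apply, scalarUnit_val,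
      LinearMap.det_smul, map_one, mul_one, ← pow_mul] at h1
    have h2 : z ^ (finrank ℂ (Fin k → ℂ) * Nat.card N) = 1 := by
      apply Subtype.ext
      rw [Subgroup.coe_pow, ha, ← map_pow,
        show a ^ (finrank ℂ (Fin k → ℂ) * Nat.card N) = 1 from Units.ext h1, map_one]
      rfl
    obtain ⟨d, -, hd, hdvd⟩ := Char.irr_degree_dvd_card (⟨k, ρ, hρ, rfl⟩ :
      Cfsg.IsIrrCharacter N ρ.character)
    rw [ρ.char_one, Nat.cast_inj] at hd
    obtain ⟨c, hc⟩ := mul_dvd_mul_right (hd ▸ hdvd : finrank ℂ (Fin k → ℂ) ∣ Nat.card N) (Nat.card N)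
    rw [hc, pow_mul, h2, one_pow]
  refine ⟨X, inferInstance, Fintype.ofFinite X, f, j.range, σ.character, hsurj, ⟨?_⟩, ?_, ?_, ?_,
    ⟨k, σ, hirr, rfl⟩, ⟨k, _, hirr', rfl⟩, ?_, hexp⟩
  · rintro _ ⟨n, rfl⟩ x
    exact ⟨CharExt.cj N (f x) n,
      Subtype.ext (interNormal_conj N ρ (x : interGroup N ρ) n).symm⟩
  · rw [MonoidHom.map_range]
    ext g
    exact ⟨fun ⟨n, hn⟩ => hn ▸ (hfj n).symm ▸ n.2, fun hg => ⟨⟨g, hg⟩, hfj ⟨g, hg⟩⟩⟩
  · intro z hz y
    obtain ⟨a, ha⟩ := exists_scalar_of_proj_eq_one N ρ (x := (z : interGroup N ρ)) hz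
    apply Subtype.ext
    show (z : interGroup N ρ) * (y : interGroup N ρ) = y * z
    rw [ha]
    exact interScalar_commute N ρ a _
  · rintro _ ⟨n, rfl⟩ hz
    rw [hfj] at hz
    rw [show n = 1 from Subtype.ext hz, map_one]
  · rintro ⟨_, n, rfl⟩ h
    show LinearMap.trace ℂ _ (σ (j n)) = ρ.character _
    rw [hσj]
    exact congrArg ρ.character (Subtype.ext (hfj n).symm)

end Cfsg.Agent.IsaacsCorr
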