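import Cfsg.Agent.IsaacsCorr.Basic

/-!
# The shape of the correspondence
-/

set_option autoImplicit false

namespace Cfsg.Agent.IsaacsCorr

open Cfsg

universe u

variable {Γ : Type u} [Group Γ]

/-- Invariance of a function on `G` under conjugation by `S`. -/
def SInv (S G : Subgroup Γ) (f : G → ℂ) : Prop :=
  ∀ s ∈ S, ∀ g g' : G, (g' : Γ) = s * g * s⁻¹ → f g' = f g

/-- `f` has `φ` in its restriction to `L`. -/
def Over {L G : Subgroup Γ} [Fintype L] (hLG : L ≤ G) (f : G → ℂ) (φ : L → ℂ) : Prop :=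
  classInner (fun n : L => f ⟨n, hLG n.2⟩) φ ≠ 0

/-- `ψ` occurs in the restriction of `f` with odd multiplicity. -/
def OddMult {G H : Subgroup Γ} [Fintype H] (hHG : H ≤ G) (f : G → ℂ) (ψ : H → ℂ) : Prop :=
  ∃ m : ℕ, classInner (fun h : H => f ⟨h, hHG h.2⟩) ψ = (m : ℂ) ∧ Odd m

theorem OddMult.ne_zero {G H : Subgroup Γ} [Fintype H] {hHG : H ≤ G} {f : G → ℂ} {ψ : H → ℂ}
    (h : OddMult hHG f ψ) : classInner (fun h : H => f ⟨h, hHG h.2⟩) ψ ≠ 0 := by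
  obtain ⟨m, hm, ho⟩ := h
  rw [hm, Nat.cast_ne_zero]
  exact ho.pos.ne'

/-- A bijection by odd multiplicity between two sets of irreducible characters. -/
structure OddCorr {G H : Subgroup Γ} [Fintype H] (hHG : H ≤ G) (PG : (G → ℂ) → Prop)
    (PH : (H → ℂ) → Prop) : Prop where
  exists_unique : ∀ χ : IrrCharacter G, PG χ → ∃ ψ : IrrCharacter H, PH ψ ∧
    OddMult hHG (χ : G → ℂ) (ψ : H → ℂ) ∧ ∀ ψ' : IrrCharacter H, PH ψ' →
      OddMult hHG (χ : G → ℂ) (ψ' : H → ℂ) → ψ' = ψ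
  injective : ∀ χ χ' : IrrCharacter G, PG χ → PG χ' → ∀ ψ : IrrCharacter H, PH ψ →
    OddMult hHG (χ : G → ℂ) (ψ : H → ℂ) → OddMult hHG (χ' : G → ℂ) (ψ : H → ℂ) → χ = χ'
  surjective : ∀ ψ : IrrCharacter H, PH ψ →
    ∃ χ : IrrCharacter G, PG χ ∧ OddMult hHG (χ : G → ℂ) (ψ : H → ℂ)

end Cfsg.Agent.IsaacsCorr
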