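import Cfsg.Agent.IsaacsCorr.Basic
import Cfsg.Agent.CharDeep.Inter
import Cfsg.Agent.CharExt.Inertia

/-!
# Invariance under an automorphism fixing a supplement pointwise

If `G = E D` with `a` fixing `D` pointwise, stabilising `E` and of period prime to `|G|`, then an
irreducible character of `G` is `a`-invariant exactly when its constituents on `E` are.
-/

set_option autoImplicit false
set_option linter.style.haveILetI false
set_option linter.unusedSectionVars false

namespace Cfsg.Agent.IsaacsCorr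

open Cfsg Cfsg.Agent Subgroup
open scoped Classical

universe u

variable {G : Type u} [Group G] [Fintype G] {E D : Subgroup G}

theorem constituent_inv [hE : E.Normal] [Fintype E] (hED : E ⊔ D = ⊤) (a : MulAut G)
    (haE : ∀ e ∈ E, a e ∈ E) (haD : ∀ d ∈ D, a d = d) {n : ℕ} (hn : a ^ n = 1)
    (hcop : (Nat.card G).Coprime n) {χ : G → ℂ} (hχ : IsIrrCharacter G χ)
    (hinv : ∀ g, χ (a g) = χ g) {β : E → ℂ} (hβ : IsIrrCharacter E β)
    (hc : classInner (fun e : E => χ e) β ≠ 0) (e : E) : β ⟨a e, haE e e.2⟩ = β e := by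
  let σ : E →* E := MonoidHom.mk' (fun e => ⟨a e, haE e e.2⟩) fun x y =>
    Subtype.ext (map_mul a (x : G) (y : G))
  have hσ : Function.Bijective σ := Finite.injective_iff_bijective.1 fun x y h =>
    Subtype.ext (a.injective (congrArg Subtype.val h))
  have hβ' : IsIrrCharacter E (fun e => β (σ e)) :=
    CharInd.irr_comp_surjective σ hσ.2 hβ
  have hc' : classInner (fun e : E => χ e) (fun e => β (σ e)) ≠ 0 := by
    rw [show (fun e : E => χ e) = fun e : E => χ (σ e : E) from funext fun e => (hinv e).symm]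
    exact (classInner_comp_mulEquiv (MulEquiv.ofBijective σ hσ) (fun e : E => χ e) β).trans_ne hc
  obtain ⟨x, hx⟩ := (CharInd.mem_conjClass E).1
    (CharExt.mem_conjClass_of_constituent E hχ hβ hβ' hc hc')
  obtain ⟨e₀, he₀, d, hd, rfl⟩ : ∃ e₀ ∈ E, ∃ d ∈ D, e₀ * d = x :=
    Subgroup.mem_sup_of_normal_left.1 (hED ▸ Subgroup.mem_top x)
  rw [CharInd.conjChar_mul,
    CharInd.conjChar_isClassFunction_mem E (Char.irr_isClassFunction hβ) ⟨e₀, he₀⟩] at hx
  have hk : ∀ k : ℕ, ∀ y : E, CharInd.conjChar E (d ^ k) β y =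
      β ⟨(a ^ k) y, by
        clear hx
        induction k with
        | zero => simpa using y.2
        | succ k ih => rw [pow_succ', MulAut.mul_apply]; exact haE _ ih⟩ := by
    intro k
    induction k with
    | zero =>
      intro y
      rw [pow_zero, CharInd.conjChar_one]
      exact congrArg β (Subtype.ext (by simp))
    | succ k ih =>
      intro y
      have h1 := ih ⟨a y, haE y y.2⟩
      have h2 := congrFun hx ⟨d ^ k * (y : G) * (d ^ k)⁻¹, hE.conj_mem _ y.2 _⟩
      rw [pow_succ', CharInd.conjChar_mul, CharInd.conjChar_apply E (d ^ k), ← h2]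
      refine Eq.trans ?_ (h1.trans (congrArg β (Subtype.ext ?_)))
      · rw [CharInd.conjChar_apply]
        refine congrArg β (Subtype.ext ?_)
        show a (d ^ k * (y : G) * (d ^ k)⁻¹) = d ^ k * a y * (d ^ k)⁻¹
        rw [map_mul, map_mul, map_inv, map_pow, haD d hd]
      · show (a ^ k) (a y) = (a ^ (k + 1)) y
        rw [pow_succ, MulAut.mul_apply]
  have hdn : d ^ n ∈ CharExt.inertia E β := by
    rw [CharExt.mem_inertia]
    funext y
    rw [hk n y]
    exact congrArg β (Subtype.ext (by simp [hn]))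
  have hd1 : d ∈ CharExt.inertia E β := mem_of_pow_mem _
    (hcop.coprime_dvd_left (orderOf_dvd_natCard d)) hdn
  have := congrFun (hx.trans hd1) e
  exact this

theorem inv_of_constituent_inv [hE : E.Normal] [Fintype E] (hED : E ⊔ D = ⊤) (a : MulAut G)
    (haE : ∀ e ∈ E, a e ∈ E) (haD : ∀ d ∈ D, a d = d) {n : ℕ} (hn : a ^ n = 1)
    (hcop : (Nat.card G).Coprime n) {χ : G → ℂ} (hχ : IsIrrCharacter G χ)
    (hinv : ∀ β : IrrCharacter E, classInner (fun e : E => χ e) (β : E → ℂ) ≠ 0 →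
      ∀ e : E, (β : E → ℂ) ⟨a e, haE e e.2⟩ = (β : E → ℂ) e) (g : G) : χ (a g) = χ g := by
  obtain ⟨e, he, d, hd, rfl⟩ : ∃ e ∈ E, ∃ d ∈ D, e * d = g :=
    Subgroup.mem_sup_of_normal_left.1 (hED ▸ Subgroup.mem_top g)
  set M := E ⊔ zpowers d with hM
  letI := Fintype.ofFinite M
  set N := E.subgroupOf M with hN
  haveI : N.Normal := Subgroup.normal_subgroupOf
  letI := Fintype.ofFinite N
  have hdM : d ∈ M := Subgroup.mem_sup_right (mem_zpowers d)
  have heM : e ∈ M := Subgroup.mem_sup_left he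
  have haM : ∀ x ∈ M, a x ∈ M := fun x hx => by
    have h1 : M.map a.toMonoidHom ≤ M := by
      rw [hM, Subgroup.map_sup]
      refine sup_le_sup (fun y ⟨z, hz, hzy⟩ => hzy ▸ haE z hz) (fun y ⟨z, hz, hzy⟩ => ?_)
      obtain ⟨k, rfl⟩ := mem_zpowers_iff.1 hz
      rw [← hzy, map_zpow]
      exact mem_zpowers_iff.2 ⟨k, by rw [show a.toMonoidHom d = d from haD d hd]⟩
    exact h1 ⟨x, hx, rfl⟩
  let σ : M →* M := MonoidHom.mk' (fun x => ⟨a x, haM x x.2⟩) fun x y =>
    Subtype.ext (map_mul a (x : G) (y : G))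
  have hσ : Function.Surjective σ := (Finite.injective_iff_surjective).1 fun x y h =>
    Subtype.ext (a.injective (congrArg Subtype.val h))
  let eN : N ≃* E := Subgroup.subgroupOfEquivOfLe le_sup_left
  let x₀ : M := ⟨e * d, M.mul_mem heM hdM⟩
  let dM : M := ⟨d, hdM⟩
  let eM : M := ⟨e, heM⟩
  have hx₀ : x₀ = eM * dM := rfl
  suffices key : ∀ η : IrrCharacter M, classInner (fun x : M => χ x) (η : M → ℂ) ≠ 0 →
      (η : M → ℂ) (σ x₀) = (η : M → ℂ) x₀ by
    have hres := CharInd.isCharacter_res M (Char.isCharacter_of_irr hχ)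
    obtain ⟨m, hm, hm'⟩ := Char.isCharacter_exists_coeff hres
    have h1 : ∀ x : M, χ x = ∑ η : IrrCharacter M, (m η : ℂ) * (η : M → ℂ) x := fun x => by
      have := congrFun hm x
      simpa [Finset.sum_apply] using this
    show χ ((σ x₀ : M) : G) = χ (x₀ : G)
    rw [h1, h1]
    refine Finset.sum_congr rfl fun η _ => ?_
    by_cases hz : m η = 0
    · simp [hz]
    · rw [key η (by rw [hm']; exact_mod_cast hz)]
  intro η hη
  obtain ⟨θ, k, hk0, hk⟩ := Char.exists_irr_constituent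
    (CharInd.isCharacter_res N (Char.isCharacter_of_irr η.2))
    (fun h => Char.irr_one_ne_zero η.2 (congrFun h 1))
  have hθn : classInner (fun x : N => (η : M → ℂ) x) (θ : N → ℂ) ≠ 0 := by
    rw [hk]; exact_mod_cast hk0.ne'
  let β : IrrCharacter E := ⟨fun x => (θ : N → ℂ) (eN.symm x),
    Char.isIrrCharacter_comp_mulEquiv θ.2 eN.symm⟩
  have hβc : classInner (fun x : E => χ x) (β : E → ℂ) ≠ 0 := by
    have h1 := CharExt.inner_ne_zero_trans N.subtype
      (CharInd.isCharacter_res M (Char.isCharacter_of_irr hχ)) η θ hη hθn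
    rw [← classInner_comp_mulEquiv eN]
    simp only [β, MulEquiv.symm_apply_apply]
    exact h1
  have hθinv : ∀ x : N, (θ : N → ℂ) ⟨σ x, haE (x : M) x.2⟩ = (θ : N → ℂ) x := by
    intro x
    have h1 := hinv β hβc (eN x)
    simp only [β, MulEquiv.symm_apply_apply] at h1
    exact h1
  by_cases hd1 : dM ∈ CharExt.inertia N (θ : N → ℂ)
  · have htop : CharExt.inertia N (θ : N → ℂ) = ⊤ := by
      rw [eq_top_iff]
      rintro ⟨x, hx⟩ -
      obtain ⟨x₁, hx₁, y, hy, rfl⟩ := Subgroup.mem_sup_of_normal_left.1 hx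
      obtain ⟨j, rfl⟩ := mem_zpowers_iff.1 hy
      have h1 : (⟨x₁ * d ^ j, hx⟩ : M) = ⟨x₁, Subgroup.mem_sup_left hx₁⟩ * dM ^ j :=
        Subtype.ext (by simp [dM])
      rw [h1]
      exact mul_mem (CharExt.le_inertia N (Char.irr_isClassFunction θ.2)
        (show (⟨x₁, _⟩ : M) ∈ N from hx₁)) (zpow_mem hd1 j)
    have hθG : ∀ (x : M) (y : N), (θ : N → ℂ) (CharExt.cj N x y) = (θ : N → ℂ) y :=
      fun x y => congrFun (CharExt.mem_inertia.1 (htop ▸ Subgroup.mem_top x)) y
    have hcyc : IsCyclic (M ⧸ N) := by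
      refine isCyclic_of_surjective ((QuotientGroup.mk' N).comp
        ((zpowers d).subtype.codRestrict M fun y => Subgroup.mem_sup_right y.2)) fun q => ?_
      obtain ⟨⟨x, hx⟩, rfl⟩ := QuotientGroup.mk'_surjective N q
      obtain ⟨x₁, hx₁, y, hy, rfl⟩ := Subgroup.mem_sup_of_normal_left.1 hx
      refine ⟨⟨y, hy⟩, (QuotientGroup.eq.2 ?_)⟩
      show y⁻¹ * (x₁ * y) ∈ E
      simpa [mul_assoc] using hE.conj_mem x₁ hx₁ y⁻¹
    obtain ⟨r, ρ, hρ, hρθ⟩ := θ.2
    haveI := hρ
    obtain ⟨τ, hτ⟩ := CharDeep.exists_extension_of_cyclic N ρ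
      (by rw [hρθ]; exact hθG) hcyc
    let ψ : M → ℂ := τ.character
    have hψN : (fun x : N => ψ x) = (θ : N → ℂ) := by
      funext x
      rw [← hρθ]
      show LinearMap.trace ℂ _ (τ x) = LinearMap.trace ℂ _ (ρ x)
      rw [hτ]
    have hψ : IsIrrCharacter M ψ := ⟨r, τ, CharExt.isIrreducible_of_restrict N τ ρ hτ, rfl⟩
    have hψN' : IsIrrCharacter N (fun x : N => ψ x) := hψN ▸ θ.2
    obtain ⟨b, -, hb, hbe⟩ := exists_mul_of_over N hψ hψN' η.2 (by rw [hψN]; exact hθn)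
    have hψσ : IsIrrCharacter M (fun x => ψ (σ x)) := CharInd.irr_comp_surjective σ hσ hψ
    obtain ⟨l, hl0, hl, hle⟩ := exists_mul_of_over N hψ hψN' hψσ (by
      have e1 : (fun x : N => ψ (σ x)) = fun x : N => ψ x := by
        funext x
        exact ((congrFun hψN ⟨σ x, haE (x : M) x.2⟩).trans (hθinv x)).trans (congrFun hψN x).symm
      rw [e1, hψN, Char.classInner_irr_self θ.2]
      exact one_ne_zero)
    have hl1 : l 1 = 1 := by
      have h1 := congrFun hle 1
      rw [Pi.mul_apply, map_one] at h1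
      exact (mul_eq_right₀ (Char.irr_one_ne_zero hψ)).1 h1.symm
    obtain ⟨L, hL⟩ := Char.exists_monoidHom_of_degree_one (Char.isCharacter_of_irr hl0) hl1
    have hcoset : ∀ (f : M → ℂ), (∀ (y : N) g, f ((y : M) * g) = f g) → ∀ y : M, (y : G) ∈ E →
        f (y * dM) = f dM := fun f hf y hy => hf ⟨y, hy⟩ dM
    have hσd : σ dM = dM := Subtype.ext (haD d hd)
    have hσx : σ x₀ = σ eM * dM := by rw [hx₀, map_mul, hσd]
    have hψe : ψ (σ x₀) = ψ x₀ := by
      have hy : ∀ y : M, (y : G) ∈ E → ψ (σ (y * dM)) = l dM * ψ (y * dM) := fun y hy => by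
        have h1 := congrFun hle (y * dM)
        rw [Pi.mul_apply, hcoset l hl y hy] at h1
        exact h1
      have hiter : ∀ j : ℕ, (a ^ j) e ∈ E ∧ ∀ hj : (a ^ j) e ∈ M,
          ψ (⟨(a ^ j) e, hj⟩ * dM) = l dM ^ j * ψ (eM * dM) := by
        intro j
        induction j with
        | zero => exact ⟨by simpa using he, fun hj => by simp [eM]⟩
        | succ j ih =>
          have h1 : (a ^ (j + 1)) e = a ((a ^ j) e) := by rw [pow_succ', MulAut.mul_apply]
          refine ⟨h1 ▸ haE _ ih.1, fun hj => ?_⟩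
          have hj' : (a ^ j) e ∈ M := Subgroup.mem_sup_left ih.1
          have h2 := hy ⟨_, hj'⟩ ih.1
          rw [map_mul, hσd, ih.2 hj', ← mul_assoc, ← pow_succ'] at h2
          rw [← h2]
          exact congrArg (fun y => ψ (y * dM)) (Subtype.ext h1)
      rw [hx₀, hy eM he]
      by_cases h0 : ψ (eM * dM) = 0
      · rw [h0, mul_zero]
      have h1 := (hiter n).2 (by rw [hn]; exact heM)
      have h2 : ψ (eM * dM) = l dM ^ n * ψ (eM * dM) := by
        refine Eq.trans (congrArg (fun y => ψ (y * dM)) (Subtype.ext ?_)) h1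
        simp [eM, hn]
      have h3 : l dM ^ n = 1 := (mul_eq_right₀ h0).1 h2.symm
      have h4 : l dM ^ Nat.card G = 1 := by
        rw [hL, ← Units.val_pow_eq_pow_val, ← map_pow,
          show dM ^ Nat.card G = 1 from Subtype.ext (pow_card_eq_one' (x := d)), map_one,
          Units.val_one]
      rw [eq_one_of_pow hcop h4 h3, one_mul]
    rw [hbe, Pi.mul_apply, Pi.mul_apply, hψe]
    congr 1
    rw [hσx, hx₀, hcoset b hb (σ eM) (haE e he), hcoset b hb eM he]
  · obtain ⟨ξ, -, hξ, -⟩ := S0854.result N (θ : N → ℂ) θ.2 (CharExt.inertia N (θ : N → ℂ))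
      (fun g => ⟨fun h y => congrFun h y, fun h => funext h⟩)
      (CharExt.le_inertia N (Char.irr_isClassFunction θ.2)) (η : M → ℂ) η.2 hθn
    have hNI : N ≤ CharExt.inertia N (θ : N → ℂ) :=
      CharExt.le_inertia N (Char.irr_isClassFunction θ.2)
    have hzero : ∀ y : M, (y : G) ∈ E → (η : M → ℂ) (y * dM) = 0 := by
      intro y hy
      rw [← hξ]
      refine CharInd.indFun_eq_zero_of_forall _ _ fun z hz => hd1 ?_
      obtain ⟨⟨z, hzM⟩, rfl⟩ : ∃ w, w = z := ⟨z, rfl⟩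
      obtain ⟨z₁, hz₁, w, hw, rfl⟩ := Subgroup.mem_sup_of_normal_left.1 hzM
      obtain ⟨j, rfl⟩ := mem_zpowers_iff.1 hw
      set Z₁ : M := ⟨z₁, Subgroup.mem_sup_left hz₁⟩
      have h1 : (⟨z₁ * d ^ j, hzM⟩ : M) = Z₁ * dM ^ j := Subtype.ext (by simp [dM, Z₁])
      rw [h1] at hz
      have h2 : (Z₁ * dM ^ j)⁻¹ * (y * dM) * (Z₁ * dM ^ j) =
          ((dM ^ j)⁻¹ * (Z₁⁻¹ * y) * dM ^ j) * (dM * ((dM ^ j)⁻¹ * Z₁ * dM ^ j) * dM⁻¹) * dM := by
        group
      have hmem : ∀ (w : M) (v : M), (v : G) ∈ E → w * v * w⁻¹ ∈ N := fun w v hv =>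
        (inferInstance : N.Normal).conj_mem v hv w
      have h3 : (dM ^ j)⁻¹ * (Z₁⁻¹ * y) * dM ^ j ∈ N := by
        simpa using hmem (dM ^ j)⁻¹ (Z₁⁻¹ * y) (E.mul_mem (E.inv_mem hz₁) hy)
      have h4 : dM * ((dM ^ j)⁻¹ * Z₁ * dM ^ j) * dM⁻¹ ∈ N :=
        hmem dM _ (show (dM ^ j)⁻¹ * Z₁ * dM ^ j ∈ N by simpa using hmem (dM ^ j)⁻¹ Z₁ hz₁)
      rw [h2] at hz
      exact ((CharExt.inertia N (θ : N → ℂ)).mul_mem_cancel_left
        (mul_mem (hNI h3) (hNI h4))).1 hz
    have hσd : σ dM = dM := Subtype.ext (haD d hd)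
    rw [hx₀, map_mul, hσd, hzero _ (haE e he), hzero _ he]

end Cfsg.Agent.IsaacsCorr
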