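import Cfsg.Agent.IsaacsCorr.Basic
import Cfsg.Agent.CharExt.InvCoprime

/-!
# Characters over an extensible character and characters of the cover modulo it
-/

set_option autoImplicit false
set_option linter.style.haveILetI false
set_option linter.unusedSectionVars false

namespace Cfsg.Agent.IsaacsCorr

open Cfsg Cfsg.Agent Subgroup
open scoped Classical

universe u

variable {P R B : Type u} [Group P] [Fintype P] [Group R] [Fintype R] [Group B] [Fintype B]
  (f : P →* R) (p : P →* B) [Fintype p.ker] (δ : P → ℂ) (c : f.ker →* ℂˣ)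

/-- The data of a lifting. -/
structure Lifting : Prop where
  surj_f : Function.Surjective f
  surj_p : Function.Surjective p
  central : f.ker ≤ center P
  irr : IsIrrCharacter P δ
  irr_res : IsIrrCharacter p.ker (fun m : p.ker => δ m)
  scalar : ∀ (z : f.ker) (x : P), δ ((z : P) * x) = (c z : ℂ) * δ x

variable {f p δ c}

/-- A character of `B` with the opposite central scalar. -/
def Good (p : P →* B) (c : f.ker →* ℂˣ) (γ : B → ℂ) : Prop :=
  ∀ (z : f.ker) (y : B), γ (p z * y) = ((c z)⁻¹ : ℂˣ) * γ y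

theorem Lifting.up (h : Lifting f p δ c) {γ : B → ℂ} (hγ : IsIrrCharacter B γ)
    (hgood : Good p c γ) : ∃ χ : IrrCharacter R, ∀ x, (χ : R → ℂ) (f x) = γ (p x) * δ x := by
  have hprod := CharExt.isIrrCharacter_mul p.ker δ h.irr h.irr_res
    (CharInd.irr_comp_surjective p h.surj_p hγ) (fun m g => by
      rw [map_mul, show p (m : P) = 1 from m.2, one_mul])
  obtain ⟨ψ, hψ, hψe⟩ := Char.irr_exists_descend hprod f.ker (fun z hz => by
    show γ (p z) * δ z = γ (p 1) * δ 1
    have h1 := hgood ⟨z, hz⟩ 1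
    have h2 := h.scalar ⟨z, hz⟩ 1
    rw [mul_one] at h1 h2
    rw [show γ (p z) = _ from h1, show δ z = _ from h2, map_one]
    have : (((c ⟨z, hz⟩)⁻¹ : ℂˣ) : ℂ) * (c ⟨z, hz⟩ : ℂ) = 1 := Units.inv_mul _
    linear_combination (γ 1 * δ 1) * this)
  let e := QuotientGroup.quotientKerEquivOfSurjective f h.surj_f
  refine ⟨⟨fun r => ψ (e.symm r), Char.isIrrCharacter_comp_mulEquiv hψ e.symm⟩, fun x => ?_⟩
  show ψ (e.symm (f x)) = _
  rw [show e.symm (f x) = (x : P ⧸ f.ker) from e.symm_apply_apply (x : P ⧸ f.ker)]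
  exact (hψe x).symm

theorem Lifting.down (h : Lifting f p δ c) (χ : IrrCharacter R)
    (hover : classInner (fun m : p.ker => (χ : R → ℂ) (f m)) (fun m => δ m) ≠ 0) :
    ∃ γ : IrrCharacter B, Good p c (γ : B → ℂ) ∧
      ∀ x, (χ : R → ℂ) (f x) = (γ : B → ℂ) (p x) * δ x := by
  obtain ⟨β, hβ, hβc, hβe⟩ := exists_mul_of_over p.ker h.irr h.irr_res
    (CharInd.irr_comp_surjective f h.surj_f χ.2) hover
  obtain ⟨ψ, hψ, hψe⟩ := Char.irr_exists_descend hβ p.ker (fun m hm => by
    have := hβc ⟨m, hm⟩ 1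
    rwa [mul_one] at this)
  let e := QuotientGroup.quotientKerEquivOfSurjective p h.surj_p
  let γ : IrrCharacter B := ⟨fun r => ψ (e.symm r), Char.isIrrCharacter_comp_mulEquiv hψ e.symm⟩
  have hγ : ∀ x, (γ : B → ℂ) (p x) = β x := fun x => by
    show ψ (e.symm (p x)) = β x
    rw [show e.symm (p x) = (x : P ⧸ p.ker) from e.symm_apply_apply (x : P ⧸ p.ker)]
    exact (hψe x).symm
  have he : ∀ x, (χ : R → ℂ) (f x) = β x * δ x := fun x => congrFun hβe x
  refine ⟨γ, fun z y => ?_, fun x => by rw [hγ, he]⟩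
  obtain ⟨x, rfl⟩ := h.surj_p y
  obtain ⟨w, hw⟩ := CharExt.exists_central_hom hβ f.ker h.central
  rw [← map_mul, hγ, hγ, hw]
  congr 2
  have h1 := he ((z : P) * 1)
  rw [hw, h.scalar, map_mul, show f (z : P) = 1 from z.2, one_mul, he] at h1
  refine eq_inv_of_mul_eq_one_left (Units.ext ?_)
  refine mul_right_cancel₀ (mul_ne_zero (Char.irr_one_ne_zero hβ) (Char.irr_one_ne_zero h.irr)) ?_
  rw [Units.val_mul, Units.val_one, one_mul]
  linear_combination -h1

theorem Lifting.classInner_eq (h : Lifting f p δ c) {F F' : R → ℂ} {γ γ' : B → ℂ}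
    (hF : ∀ x, F (f x) = γ (p x) * δ x) (hF' : ∀ x, F' (f x) = γ' (p x) * δ x) :
    classInner F F' = classInner γ γ' := by
  rw [← GlauberCorr.classInner_comp_surjective f h.surj_f,
    ← GlauberCorr.classInner_comp_surjective p h.surj_p γ γ']
  rw [← CharExt.classInner_mul_mul p.ker δ h.irr h.irr_res (fun x => γ (p x)) (fun x => γ' (p x))
    (fun m g => by rw [map_mul, show p (m : P) = 1 from m.2, one_mul])
    (fun m g => by rw [map_mul, show p (m : P) = 1 from m.2, one_mul])]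
  congr 1
  · exact funext hF
  · exact funext hF'

theorem Lifting.unique (h : Lifting f p δ c) {χ : R → ℂ} (γ γ' : IrrCharacter B)
    (hF : ∀ x, χ (f x) = (γ : B → ℂ) (p x) * δ x)
    (hF' : ∀ x, χ (f x) = (γ' : B → ℂ) (p x) * δ x) : γ = γ' := by
  by_contra hne
  have h1 := (h.classInner_eq hF hF).symm.trans (h.classInner_eq hF hF')
  rw [Char.classInner_irr_self γ.2,
    Char.classInner_irr_ne γ.2 γ'.2 (fun e => hne (Subtype.ext e))] at h1
  exact one_ne_zero h1

theorem Lifting.over (h : Lifting f p δ c) {χ : R → ℂ} (γ : IrrCharacter B)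
    (hF : ∀ x, χ (f x) = (γ : B → ℂ) (p x) * δ x) :
    classInner (fun m : p.ker => χ (f m)) (fun m => δ m) ≠ 0 := by
  have e : (fun m : p.ker => χ (f m)) = (γ : B → ℂ) 1 • fun m : p.ker => δ m := by
    funext m
    rw [Pi.smul_apply, smul_eq_mul, hF, show p (m : P) = 1 from m.2]
  rw [e, Char.classInner_smul_left, Char.classInner_irr_self h.irr_res, mul_one]
  exact Char.irr_one_ne_zero γ.2

/-- A central scalar passes to the constituents of a restriction. -/
theorem central_eq {G : Type u} [Group G] [Fintype G] (D Zs : Subgroup G) [Fintype D]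
    (hZD : Zs ≤ D) (hZc : Zs ≤ center G) (γ : IrrCharacter G) (β : IrrCharacter D)
    (hne : classInner (fun d : D => (γ : G → ℂ) d) (β : D → ℂ) ≠ 0) :
    ∃ w : Zs →* ℂˣ, (∀ (z : Zs) g, (γ : G → ℂ) ((z : G) * g) = (w z : ℂ) * (γ : G → ℂ) g) ∧
      ∀ (z : Zs) (d : D), (β : D → ℂ) (inclusion hZD z * d) = (w z : ℂ) * (β : D → ℂ) d := by
  letI := Fintype.ofFinite Zs
  obtain ⟨w, hw⟩ := CharExt.exists_central_hom γ.2 Zs hZc
  obtain ⟨μ, hμ⟩ := CharExt.exists_central_hom β.2 (Zs.subgroupOf D) (fun z hz =>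
    mem_center_iff.2 fun d => Subtype.ext (mem_center_iff.1 (hZc hz) d))
  let μ' : Zs →* ℂˣ := μ.comp ((inclusion hZD).codRestrict (Zs.subgroupOf D) fun z => z.2)
  have hμ' : ∀ (z : Zs) (d : D), (β : D → ℂ) (inclusion hZD z * d) = (μ' z : ℂ) * (β : D → ℂ) d :=
    fun z d => hμ ⟨inclusion hZD z, z.2⟩ d
  let l : IrrCharacter Zs := ⟨fun z => (μ' z : ℂ), Char.isIrrCharacter_monoidHom μ'⟩
  have h1 : classInner (fun z : Zs => (β : D → ℂ) (inclusion hZD z)) (l : Zs → ℂ) ≠ 0 := by
    have e : (fun z : Zs => (β : D → ℂ) (inclusion hZD z)) =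
        (β : D → ℂ) 1 • fun z : Zs => (μ' z : ℂ) := by
      funext z
      rw [Pi.smul_apply, smul_eq_mul, mul_comm, ← hμ', mul_one]
    rw [e, Char.classInner_smul_left, Char.classInner_irr_self l.2, mul_one]
    exact Char.irr_one_ne_zero β.2
  have h2 := CharExt.inner_ne_zero_trans (inclusion hZD)
    (CharInd.isCharacter_res D (Char.isCharacter_of_irr γ.2)) β l hne h1
  rw [CharExt.central_hom_eq_of_constituent Zs hw (μ := μ') h2] at hw
  exact ⟨μ', hw, hμ'⟩

end Cfsg.Agent.IsaacsCorr
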