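import Cfsg.Agent.IsaacsCorr.Step

/-!
# The Isaacs correspondence
-/

set_option autoImplicit false
set_option linter.style.haveILetI false
set_option linter.unusedSectionVars false

namespace Cfsg.Agent.IsaacsCorr

open Cfsg Cfsg.Agent Subgroup
open scoped Classical

universe u

variable {Γ : Type u} [Group Γ] [Fintype Γ]

theorem oddMult_irr {G H : Subgroup Γ} [Fintype H] (hHG : H ≤ G) (χ : IrrCharacter G)
    (ψ : IrrCharacter H) : OddMult hHG (χ : G → ℂ) (ψ : H → ℂ) →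
    classInner (fun h : H => (χ : G → ℂ) (inclusion hHG h)) (ψ : H → ℂ) ≠ 0 :=
  fun h => h.ne_zero

theorem exists_over {A L : Subgroup Γ} [Fintype A] [Fintype L] (hLA : L ≤ A) (χ : IrrCharacter A) :
    ∃ φ : IrrCharacter L, Over hLA (χ : A → ℂ) (φ : L → ℂ) := by
  obtain ⟨θ, k, hk0, hk⟩ := Char.exists_irr_constituent
    (CharInd.isCharacter_comp (inclusion hLA) (Char.isCharacter_of_irr χ.2))
    (fun h => Char.irr_one_ne_zero χ.2 (congrFun h 1))
  exact ⟨θ, show classInner _ _ ≠ 0 from hk.trans_ne (Nat.cast_ne_zero.2 hk0.ne')⟩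

theorem over_trans {G H L : Subgroup Γ} [Fintype G] [Fintype H] [Fintype L] (hHG : H ≤ G)
    (hLH : L ≤ H) (χ : IrrCharacter G) (ψ : IrrCharacter H) (φ : IrrCharacter L)
    (h1 : OddMult hHG (χ : G → ℂ) (ψ : H → ℂ)) (h2 : Over hLH (ψ : H → ℂ) (φ : L → ℂ)) :
    Over (hLH.trans hHG) (χ : G → ℂ) (φ : L → ℂ) :=
  CharExt.inner_ne_zero_trans (inclusion hLH)
    (CharInd.isCharacter_comp (inclusion hHG) (Char.isCharacter_of_irr χ.2)) ψ φ
    (oddMult_irr hHG χ ψ h1) h2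

variable {G S K L H : Subgroup Γ} [G.Normal] [hK : K.Normal] [hL : L.Normal] [Fintype L]
  [Fintype G] [Fintype H]

/-- An invariant character of `G` has an invariant constituent on `L`. -/
theorem Config.exists_sinv_under (h : Config G S K L H) (χ : IrrCharacter G)
    (hχ : SInv S G (χ : G → ℂ)) :
    ∃ φ : IrrCharacter L, SInv S L (φ : L → ℂ) ∧
      Over (h.LK.trans h.KG) (χ : G → ℂ) (φ : L → ℂ) := by
  haveI := h.solv
  obtain ⟨θ, hθ, hinv⟩ := CharExt.exists_inv_under G L S (h.LK.trans h.KG) (sup_comm G S ▸ h.top)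
    ((h.cop.symm.coprime_dvd_left (card_map_dvd _ _)).coprime_dvd_right (card_map_dvd _ _))
    (Or.inr (Group.isSolvable_of_surjective (QuotientGroup.mk'_surjective _))) χ
    (fun s hs => funext fun g => hχ s hs g _ rfl)
  exact ⟨θ, (sinv_iff L (θ : L → ℂ)).2 hinv, hθ⟩

/-- The correspondence in the reduced configuration. -/
theorem Config.corr (h : Config G S K L H) :
    OddCorr h.HG (fun χ => SInv S G χ) (fun ψ => SInv S H ψ) := by
  have hHcop : (Nat.card H).Coprime (Nat.card S) :=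
    h.cop.coprime_dvd_left (card_dvd_of_le h.HG)
  refine ⟨fun χ hχ => ?_, fun χ χ' hχ hχ' ψ hψ ho ho' => ?_, fun ψ hψ => ?_⟩
  · obtain ⟨φ, hφ, hov⟩ := h.exists_sinv_under χ hχ
    obtain ⟨ψ, hψ, ho, hu⟩ := (h.step φ hφ).exists_unique χ ⟨hχ, hov⟩
    refine ⟨ψ, hψ.1, ho, fun ψ' hψ' ho' => hu ψ' ⟨hψ', ?_⟩ ho'⟩
    obtain ⟨φ', hov'⟩ := exists_over h.LH ψ'
    have hφ' := sinv_of_over L h.LH h.fixH hHcop ψ' hψ' φ' hov'
    have hχφ' := over_trans h.HG h.LH χ ψ' φ' ho' hov'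
    obtain ⟨x, hx, he⟩ := exists_conj_of_over L (h.LK.trans h.KG) χ φ.2 φ'.2 hov hχφ'
    obtain ⟨k, hk, y, hy, rfl⟩ := Subgroup.mem_sup_of_normal_left.1
      (h.KH.symm ▸ hx : x ∈ K ⊔ H)
    have hky : CharInd.conjChar L k (φ : L → ℂ) =
        CharInd.conjChar L y⁻¹ (φ' : L → ℂ) := by
      rw [he, ← CharInd.conjChar_mul, mul_inv_cancel_right]
    have hkI := h.mem_inertia φ hφ hk (hky ▸ h.conjH φ' hφ' (H.inv_mem hy))
    rw [CharExt.mem_inertia.1 hkI] at hky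
    rw [hky]
    exact over_conj L h.LH (Char.irr_isClassFunction ψ'.2) hov' (H.inv_mem hy)
  · obtain ⟨φ, hov⟩ := exists_over h.LH ψ
    have hφ := sinv_of_over L h.LH h.fixH hHcop ψ hψ φ hov
    exact (h.step φ hφ).injective χ χ' ⟨hχ, over_trans h.HG h.LH χ ψ φ ho hov⟩
      ⟨hχ', over_trans h.HG h.LH χ' ψ φ ho' hov⟩ ψ ⟨hψ, hov⟩ ho ho'
  · obtain ⟨φ, hov⟩ := exists_over h.LH ψ
    have hφ := sinv_of_over L h.LH h.fixH hHcop ψ hψ φ hov
    obtain ⟨χ, hχ, ho⟩ := (h.step φ hφ).surjective ψ ⟨hψ, hov⟩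
    exact ⟨χ, hχ.1, ho⟩

omit [G.Normal] hK hL [Fintype L] in
theorem OddCorr.of_subgroupOf {T : Subgroup Γ} (hGT : G ≤ T) (hST : S ≤ T) (hHG : H ≤ G)
    [Fintype (H.subgroupOf T)] (hle : H.subgroupOf T ≤ G.subgroupOf T)
    (hc : OddCorr hle (fun χ => SInv (S.subgroupOf T) (G.subgroupOf T) χ)
      (fun ψ => SInv (S.subgroupOf T) (H.subgroupOf T) ψ)) :
    OddCorr hHG (fun χ => SInv S G χ) (fun ψ => SInv S H ψ) := by
  let eG : G.subgroupOf T ≃* G := Subgroup.subgroupOfEquivOfLe hGT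
  let eH : H.subgroupOf T ≃* H := Subgroup.subgroupOfEquivOfLe (hHG.trans hGT)
  have hs : ∀ (A : Subgroup Γ) (hA : A ≤ T) (f : A → ℂ),
      SInv (S.subgroupOf T) (A.subgroupOf T)
        (fun x => f (Subgroup.subgroupOfEquivOfLe hA x)) ↔ SInv S A f := by
    intro A hA f
    constructor
    · intro hh s hs g g' hgg
      exact hh ⟨s, hST hs⟩ hs ⟨⟨g, hA g.2⟩, g.2⟩ ⟨⟨g', hA g'.2⟩, g'.2⟩ (Subtype.ext hgg)
    · intro hh s hs g g' hgg
      exact hh s hs _ _ (congrArg Subtype.val hgg)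
  have hm : ∀ (f : G → ℂ) (F : H → ℂ),
      OddMult hle (fun x => f (eG x)) (fun x => F (eH x)) ↔ OddMult hHG f F := by
    intro f F
    unfold OddMult
    rw [← classInner_comp_mulEquiv eH]
    rfl
  let upG : IrrCharacter G → IrrCharacter (G.subgroupOf T) := fun χ =>
    ⟨fun x => (χ : G → ℂ) (eG x), Char.isIrrCharacter_comp_mulEquiv χ.2 eG⟩
  let upH : IrrCharacter H → IrrCharacter (H.subgroupOf T) := fun χ =>
    ⟨fun x => (χ : H → ℂ) (eH x), Char.isIrrCharacter_comp_mulEquiv χ.2 eH⟩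
  let dnG : IrrCharacter (G.subgroupOf T) → IrrCharacter G := fun χ =>
    ⟨fun x => (χ : G.subgroupOf T → ℂ) (eG.symm x), Char.isIrrCharacter_comp_mulEquiv χ.2 eG.symm⟩
  let dnH : IrrCharacter (H.subgroupOf T) → IrrCharacter H := fun χ =>
    ⟨fun x => (χ : H.subgroupOf T → ℂ) (eH.symm x), Char.isIrrCharacter_comp_mulEquiv χ.2 eH.symm⟩
  refine ⟨fun χ hχ => ?_, fun χ χ' hχ hχ' ψ hψ ho ho' => ?_, fun ψ hψ => ?_⟩
  · obtain ⟨ψ, hψ, ho, hu⟩ := hc.exists_unique (upG χ) ((hs G hGT _).2 hχ)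
    refine ⟨dnH ψ, (hs H (hHG.trans hGT) _).1 hψ, (hm (χ : G → ℂ) (dnH ψ : H → ℂ)).1 ho,
      fun ψ' hψ' ho' => ?_⟩
    exact (congrArg dnH (hu (upH ψ') ((hs H (hHG.trans hGT) _).2 hψ')
      ((hm (χ : G → ℂ) (ψ' : H → ℂ)).2 ho')))
  · exact congrArg dnG (hc.injective (upG χ) (upG χ') ((hs G hGT _).2 hχ) ((hs G hGT _).2 hχ')
      (upH ψ) ((hs H (hHG.trans hGT) _).2 hψ) ((hm _ _).2 ho) ((hm _ _).2 ho'))
  · obtain ⟨χ, hχ, ho⟩ := hc.surjective (upH ψ) ((hs H (hHG.trans hGT) _).2 hψ)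
    exact ⟨dnG χ, (hs G hGT _).1 hχ, (hm (dnG χ : G → ℂ) (ψ : H → ℂ)).1 ho⟩

omit [G.Normal] hK hL [Fintype L] in
/-- Coprime action of `S` on `G`: the correspondence between `G = KC` and `H = LC`. -/
theorem isaacs_corr (G S : Subgroup Γ) [Fintype G] (hnorm : ∀ s ∈ S, ∀ g ∈ G, s * g * s⁻¹ ∈ G)
    (hcop : (Nat.card G).Coprime (Nat.card S)) (hsolv : Group.IsSolvable G)
    (hodd : Odd (Nat.card G)) (C : Subgroup Γ) (hC : C = G ⊓ centralizer (S : Set Γ))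
    (K L H : Subgroup Γ) [Fintype H] (hLK : L ≤ K) (hKG : K ≤ G)
    (hKn : ∀ g ∈ G, ∀ k ∈ K, g * k * g⁻¹ ∈ K) (hLn : ∀ g ∈ G, ∀ l ∈ L, g * l * g⁻¹ ∈ L)
    (hKS : ∀ s ∈ S, ∀ k ∈ K, s * k * s⁻¹ ∈ K) (hLS : ∀ s ∈ S, ∀ l ∈ L, s * l * s⁻¹ ∈ L)
    (hab : ∀ a ∈ K, ∀ b ∈ K, a * b * a⁻¹ * b⁻¹ ∈ L) (hGKC : K ⊔ C = G) (hH : H = L ⊔ C)
    (hHG : H ≤ G) : OddCorr hHG (fun χ => SInv S G χ) (fun ψ => SInv S H ψ) := by
  -- enlarge `L` to `K ⊓ H`
  have hLH : L ≤ H := hH ▸ le_sup_left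
  have hCH : C ≤ H := hH ▸ le_sup_right
  have hCfix : ∀ c ∈ C, ∀ s ∈ S, s * c = c * s := fun c hc s hs =>
    Subgroup.mem_centralizer_iff.1 (hC ▸ hc : c ∈ G ⊓ centralizer (S : Set Γ)).2 s hs
  have hKnorm : ∀ g ∈ G ⊔ S, g ∈ normalizer (K : Set Γ) := by
    refine fun g hg => (sup_le ?_ ?_ : G ⊔ S ≤ normalizer (K : Set Γ)) hg
    · intro x hx
      rw [Subgroup.mem_normalizer_iff]
      exact fun y => ⟨hKn x hx y, fun hy => by
        simpa [mul_assoc] using hKn x⁻¹ (G.inv_mem hx) _ hy⟩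
    · intro x hx
      rw [Subgroup.mem_normalizer_iff]
      exact fun y => ⟨hKS x hx y, fun hy => by
        simpa [mul_assoc] using hKS x⁻¹ (S.inv_mem hx) _ hy⟩
  have hLnorm : G ⊔ S ≤ normalizer (L : Set Γ) := by
    refine sup_le ?_ ?_
    · intro x hx
      rw [Subgroup.mem_normalizer_iff]
      exact fun y => ⟨hLn x hx y, fun hy => by
        simpa [mul_assoc] using hLn x⁻¹ (G.inv_mem hx) _ hy⟩
    · intro x hx
      rw [Subgroup.mem_normalizer_iff]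
      exact fun y => ⟨hLS x hx y, fun hy => by
        simpa [mul_assoc] using hLS x⁻¹ (S.inv_mem hx) _ hy⟩
  have hCG : C ≤ G := hC ▸ inf_le_left
  have hCL : C ≤ normalizer (L : Set Γ) := (hCG.trans le_sup_left).trans hLnorm
  have hdec : ∀ x ∈ H, ∃ l ∈ L, ∃ c ∈ C, l * c = x := by
    intro x hx
    rw [hH, ← SetLike.mem_coe, Subgroup.coe_mul_of_right_le_normalizer_left L C hCL] at hx
    exact Set.mem_mul.1 hx
  have hfixH : ∀ s ∈ S, ∀ x ∈ H, s * x * s⁻¹ * x⁻¹ ∈ L := by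
    intro s hs x hx
    obtain ⟨l, hl, c, hc, rfl⟩ := hdec x hx
    have e : s * (l * c) * s⁻¹ * (l * c)⁻¹ = s * l * s⁻¹ * l⁻¹ := by
      rw [← mul_assoc s, mul_assoc (s * l) c, ← eq_mul_inv_of_mul_eq
        (show s⁻¹ * c * s = c by rw [mul_assoc, ← hCfix c hc s hs, inv_mul_cancel_left]) ]
      group
    rw [e]
    exact L.mul_mem (hLS s hs l hl) (L.inv_mem hl)
  let L₁ := K ⊓ H
  have hLL₁ : L ≤ L₁ := le_inf hLK hLH
  -- the working group
  let T := G ⊔ S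
  have hGT : G ≤ T := le_sup_left
  have hST : S ≤ T := le_sup_right
  letI := Fintype.ofFinite T
  letI := Fintype.ofFinite (G.subgroupOf T)
  letI := Fintype.ofFinite (H.subgroupOf T)
  letI := Fintype.ofFinite (L₁.subgroupOf T)
  have hGn : (G.subgroupOf T).Normal := by
    rw [Subgroup.normal_subgroupOf_iff_le_normalizer hGT]
    refine sup_le Subgroup.le_normalizer fun x hx => ?_
    rw [Subgroup.mem_normalizer_iff]
    exact fun y => ⟨hnorm x hx y, fun hy => by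
      simpa [mul_assoc] using hnorm x⁻¹ (S.inv_mem hx) _ hy⟩
  have hKn' : (K.subgroupOf T).Normal :=
    (Subgroup.normal_subgroupOf_iff_le_normalizer (hKG.trans hGT)).2 fun x hx => hKnorm x hx
  have hconjH : ∀ s ∈ S, ∀ x ∈ H, s * x * s⁻¹ ∈ H := fun s hs x hx => by
    have := H.mul_mem (hLH (hfixH s hs x hx)) hx
    rwa [inv_mul_cancel_right] at this
  have hL₁n : (L₁.subgroupOf T).Normal := by
    rw [Subgroup.normal_subgroupOf_iff_le_normalizer ((inf_le_left.trans hKG).trans hGT)]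
    have hK₁ : K ≤ normalizer (L₁ : Set Γ) := by
      intro k hk
      have h1 : ∀ a ∈ K, ∀ y ∈ L₁, a * y * a⁻¹ ∈ L₁ := fun a ha y hy => by
        rw [← inv_mul_cancel_right (a * y * a⁻¹) y]
        exact L₁.mul_mem (hLL₁ (hab a ha y hy.1)) hy
      rw [Subgroup.mem_normalizer_iff]
      exact fun y => ⟨h1 k hk y, fun hy => by
        simpa [mul_assoc] using h1 k⁻¹ (K.inv_mem hk) _ hy⟩
    refine sup_le (hGKC ▸ sup_le hK₁ ?_) ?_
    · intro c hc
      rw [Subgroup.mem_normalizer_iff]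
      intro y
      show y ∈ K ⊓ H ↔ c * y * c⁻¹ ∈ K ⊓ H
      exact and_congr (Subgroup.mem_normalizer_iff.1 (hKnorm c (hGT (hCG hc))) y)
        ((Subgroup.mul_mem_cancel_right _ (H.inv_mem (hCH hc))).trans
          (Subgroup.mul_mem_cancel_left _ (hCH hc))).symm
    · intro s hs
      rw [Subgroup.mem_normalizer_iff]
      intro y
      show y ∈ K ⊓ H ↔ s * y * s⁻¹ ∈ K ⊓ H
      refine and_congr (Subgroup.mem_normalizer_iff.1 (hKnorm s (hST hs)) y)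
        ⟨hconjH s hs y, fun hy => ?_⟩
      simpa [mul_assoc] using hconjH s⁻¹ (S.inv_mem hs) _ hy
  haveI := hGn
  haveI := hKn'
  haveI := hL₁n
  haveI := hsolv
  have hcfg : Config (G.subgroupOf T) (S.subgroupOf T) (K.subgroupOf T) (L₁.subgroupOf T)
      (H.subgroupOf T) := by
    refine ⟨?_, fun x hx => hx.1, fun x hx => hKG hx, fun x hx => hHG hx, fun x hx => hx.2, ?_,
      ?_, fun a ha b hb => ?_, ?_, ?_, ?_, fun s hs x hx => ?_, fun k hk hall => ?_⟩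
    · rw [← Subgroup.subgroupOf_sup hGT hST, Subgroup.subgroupOf_self]
    · rw [← Subgroup.subgroupOf_sup (hKG.trans hGT) (hHG.trans hGT)]
      congr 1
      refine le_antisymm (sup_le hKG hHG) ?_
      rw [← hGKC]
      exact sup_le_sup_left hCH K
    · ext x; exact Iff.rfl
    · exact ⟨(show kap (a : Γ) b ∈ K from
        K.mul_mem (K.mul_mem (K.mul_mem ha hb) (K.inv_mem ha)) (K.inv_mem hb)),
        hLH (hab (a : Γ) ha (b : Γ) hb)⟩
    · rw [Nat.card_congr (Subgroup.subgroupOfEquivOfLe hGT).toEquiv]; exact hodd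
    · rw [Nat.card_congr (Subgroup.subgroupOfEquivOfLe hGT).toEquiv,
        Nat.card_congr (Subgroup.subgroupOfEquivOfLe hST).toEquiv]
      exact hcop
    · exact Group.isSolvable_of_surjective
        (f := (Subgroup.subgroupOfEquivOfLe hGT).symm.toMonoidHom)
        (Subgroup.subgroupOfEquivOfLe hGT).symm.surjective
    · show ((s * x * s⁻¹ * x⁻¹ : T) : Γ) ∈ K ⊓ H
      have hl : (s : Γ) * x * (s : Γ)⁻¹ * (x : Γ)⁻¹ ∈ L := hfixH (s : Γ) hs (x : Γ) hx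
      exact hLL₁ hl
    · show (k : Γ) ∈ K ⊓ H
      have hL₁G : L₁ ≤ G := inf_le_left.trans hKG
      have hSn : S ≤ normalizer (L₁ : Set Γ) :=
        hST.trans ((Subgroup.normal_subgroupOf_iff_le_normalizer (hL₁G.trans hGT)).1 hL₁n)
      obtain ⟨c, ⟨hcK, hc⟩, hkc⟩ := Coprime.exists_fixed_mem_coset hSn
        (hcop.symm.coprime_dvd_right (card_dvd_of_le hL₁G))
        (Or.inr (Coprime.isSolvable_of_le hL₁G hsolv)) (inf_le_left : L₁ ≤ K)
        (k := (k : Γ)) hk fun s hs => by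
          have h1 : s * (k : Γ) * s⁻¹ * (k : Γ)⁻¹ ∈ L₁ := hall ⟨s, hST hs⟩ hs
          have h2 := (Subgroup.mem_normalizer_iff.1
            ((Subgroup.normal_subgroupOf_iff_le_normalizer (hL₁G.trans hGT)).1 hL₁n
              (T.inv_mem k.2)) _).1 h1
          simpa [mul_assoc] using h2
      have hcH : c ∈ H := hCH (hC ▸ ⟨hKG hcK, hc⟩)
      have h3 := L₁.mul_mem (show c ∈ L₁ from ⟨hcK, hcH⟩) (L₁.inv_mem hkc)
      have h4 : (k : Γ) ∈ L₁ := by simpa using h3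
      exact h4
  exact OddCorr.of_subgroupOf hGT hST hHG _ hcfg.corr

end Cfsg.Agent.IsaacsCorr
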