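import Cfsg.Agent.IsaacsCorr.Quadratic
import Cfsg.Agent.IsaacsCorr.Layer
import Cfsg.Agent.Char.Glauberman
import Cfsg.Agent.CharExt.InvCoprime

/-!
# The correspondence for a central layer with no fixed points

`G = E D`, `E ∩ D = Z` central, `[E, E] ≤ Z`, odd order, a coprime group fixes `D` pointwise and
nothing of `E` outside `Z`. Then there is an involutory automorphism `τ` with fixed points `D`
leaving invariant the same characters, so the Glauberman correspondence for `2` applies.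
-/

set_option autoImplicit false
set_option linter.style.haveILetI false
set_option linter.unusedSectionVars false

namespace Cfsg.Agent.IsaacsCorr

open Cfsg Cfsg.Agent Subgroup
open scoped Classical

universe u v

variable {G : Type u} [Group G] [Fintype G] {E Z D : Subgroup G} {S : Type v} [Group S] [Finite S]

theorem exists_tau (h : ClassTwo E Z) [hE : E.Normal] (hED : E ⊔ D = ⊤) (hmeet : E ⊓ D = Z)
    {p : G → G} (hpZ : ∀ e ∈ E, p e ∈ Z)
    (hpmul : ∀ a ∈ E, ∀ b ∈ E, p (a * b) = p a * p b * kap a b) (hpz : ∀ z ∈ Z, p z = z ^ 2)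
    (hpD : ∀ d ∈ D, ∀ e ∈ E, p (d * e * d⁻¹) = p e) :
    ∃ τ : MulAut G, τ ^ 2 = 1 ∧ (∀ e ∈ E, τ e = p e * e⁻¹) ∧ ∀ g, g ∈ D ↔ τ g = g := by
  have hdec : ∀ g : G, ∃ e d, e ∈ E ∧ d ∈ D ∧ e * d = g := fun g => by
    obtain ⟨e, he, d, hd, h1⟩ := Subgroup.mem_sup_of_normal_left.1
      (hED ▸ Subgroup.mem_top g : g ∈ E ⊔ D)
    exact ⟨e, d, he, hd, h1⟩
  choose eo dd he hd hdec using hdec
  have hZD : Z ≤ D := hmeet ▸ inf_le_right
  let t : G → G := fun e => p e * e⁻¹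
  have htE : ∀ e ∈ E, t e ∈ E := fun e he => E.mul_mem (h.le (hpZ e he)) (E.inv_mem he)
  have htmul : ∀ a ∈ E, ∀ b ∈ E, t (a * b) = t a * t b := by
    intro a ha b hb
    show p (a * b) * (a * b)⁻¹ = p a * a⁻¹ * (p b * b⁻¹)
    have hz := h.comm a ha b hb
    have e1 : a⁻¹ * (p b * b⁻¹) = p b * (a⁻¹ * b⁻¹) := by
      rw [← mul_assoc, ← h.commute (hpZ b hb) a⁻¹, mul_assoc]
    rw [hpmul a ha b hb, mul_assoc (p a) a⁻¹, e1, mul_assoc (p a * p b), mul_assoc (p a)]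
    congr 2
    rw [mul_eq_kap a b, mul_inv_rev, h.commute hz]
    simp [mul_assoc]
  have htz : ∀ z ∈ Z, t z = z := fun z hz => by
    show p z * z⁻¹ = z
    rw [hpz z hz, pow_two, mul_inv_cancel_right]
  have htd : ∀ d ∈ D, ∀ e ∈ E, t (d * e * d⁻¹) = d * t e * d⁻¹ := by
    intro d hd e he
    show p (d * e * d⁻¹) * (d * e * d⁻¹)⁻¹ = d * (p e * e⁻¹) * d⁻¹
    rw [hpD d hd e he, ← mul_assoc d (p e), ← h.commute (hpZ e he) d]
    simp [mul_assoc]
  have hwd : ∀ e ∈ E, ∀ d ∈ D, t (eo (e * d)) * dd (e * d) = t e * d := by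
    intro e he' d hd'
    have h1 : e⁻¹ * eo (e * d) = d * (dd (e * d))⁻¹ := by
      rw [eq_mul_inv_iff_mul_eq, mul_assoc, hdec, inv_mul_cancel_left]
    have hz : e⁻¹ * eo (e * d) ∈ Z := by
      rw [← hmeet]
      exact ⟨E.mul_mem (E.inv_mem he') (he _), h1 ▸ D.mul_mem hd' (D.inv_mem (hd _))⟩
    have h2 := htmul e he' _ (h.le hz)
    rw [mul_inv_cancel_left, htz _ hz] at h2
    rw [h2, h1]
    simp [mul_assoc]
  let F : G → G := fun g => t (eo g) * dd g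
  have hFmul : ∀ x y, F (x * y) = F x * F y := by
    intro x y
    have h1 : x * y = (eo x * (dd x * eo y * (dd x)⁻¹)) * (dd x * dd y) := by
      conv_lhs => rw [← hdec x, ← hdec y]
      simp [mul_assoc]
    have h2 : dd x * eo y * (dd x)⁻¹ ∈ E := hE.conj_mem _ (he y) _
    show t (eo (x * y)) * dd (x * y) = _
    rw [h1, hwd _ (E.mul_mem (he x) h2) _ (D.mul_mem (hd x) (hd y)), htmul _ (he x) _ h2,
      htd _ (hd x) _ (he y)]
    show _ = t (eo x) * dd x * (t (eo y) * dd y)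
    simp [mul_assoc]
  have htt : ∀ e ∈ E, t (t e) = e := by
    intro e he'
    have h1 := htmul _ (htE e he') e he'
    have h2 : t e * e = p e := inv_mul_cancel_right (p e) e
    rw [h2, htz _ (hpZ e he')] at h1
    show t (t e) = e
    have h3 : t (t e) = p e * (t e)⁻¹ := eq_mul_inv_iff_mul_eq.2 h1.symm
    rw [h3]
    show p e * (p e * e⁻¹)⁻¹ = e
    rw [mul_inv_rev, inv_inv, h.commute (hpZ e he'), mul_assoc, inv_mul_cancel, mul_one]
  have hFF : ∀ g, F (F g) = g := fun g => by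
    show t (eo (t (eo g) * dd g)) * dd (t (eo g) * dd g) = g
    rw [hwd _ (htE _ (he g)) _ (hd g), htt _ (he g), hdec]
  let τ : MulAut G :=
    { toFun := F, invFun := F, left_inv := hFF, right_inv := hFF, map_mul' := hFmul }
  have hτ : ∀ g, τ g = F g := fun _ => rfl
  refine ⟨τ, MulEquiv.ext fun g => by rw [pow_two, MulAut.mul_apply]; exact hFF g, fun e he' => ?_,
    fun g => ⟨fun hg => ?_, fun hg => ?_⟩⟩
  · have h1 := hwd e he' 1 D.one_mem
    rw [mul_one, mul_one] at h1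
    exact h1
  · have h1 := hwd 1 E.one_mem g hg
    rw [one_mul, htz 1 Z.one_mem, one_mul] at h1
    exact h1
  · have h1 : t (eo g) = eo g := mul_right_cancel (hg.trans (hdec g).symm)
    have h2 : eo g * eo g = p (eo g) := by
      have h1' : p (eo g) * (eo g)⁻¹ = eo g := h1
      exact (mul_inv_eq_iff_eq_mul.1 h1').symm
    have h3 : eo g ∈ Z := mem_of_pow_mem Z (n := 2)
      (Nat.Coprime.coprime_dvd_left (orderOf_dvd_natCard _) h.odd.coprime_two_right) (by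
        rw [pow_two, h2]; exact hpZ _ (he g))
    exact hdec g ▸ D.mul_mem (hZD h3) (hd g)

theorem inv_iff_tau (h : ClassTwo E Z) [Fintype E] (α : S →* MulAut G)
    (hαE : ∀ s, ∀ e ∈ E, α s e ∈ E) (hαZ : ∀ s, ∀ z ∈ Z, α s z = z) {p : G → G}
    (hpZ : ∀ e ∈ E, p e ∈ Z) (hpα : ∀ s, ∀ e ∈ E, p (α s e) = p e)
    (hpν : ∀ (R : Subgroup G) (ν : G → ℂ), R ≤ E →
        (∀ a ∈ R, ∀ b ∈ R, ν (a * b) = ν a * ν b) →
        ν 1 = 1 → (∀ s, ∀ r ∈ R, α s r ∈ R) → (∀ s, ∀ r ∈ R, ν (α s r) = ν r) →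
        ∀ r ∈ R, ν (p r) = ν r ^ 2)
    (τ : MulAut G) (hτE : ∀ e ∈ E, τ e ∈ E) (hτ : ∀ e ∈ E, τ e = p e * e⁻¹) (β : IrrCharacter E) :
    (∀ s (e : E), (β : E → ℂ) ⟨α s e, hαE s e e.2⟩ = (β : E → ℂ) e) ↔
      ∀ e : E, (β : E → ℂ) ⟨τ e, hτE e e.2⟩ = (β : E → ℂ) e := by
  obtain ⟨b, hb⟩ : ∃ b, b = (β : E → ℂ) := ⟨_, rfl⟩
  have hirr : IsIrrCharacter E b := hb ▸ β.2
  rw [← hb]
  clear hb β
  obtain ⟨k, ρ, hρ, rfl⟩ := hirr
  haveI := hρ
  have hb1 : ρ.character 1 ≠ 0 := Char.irr_one_ne_zero ⟨k, ρ, hρ, rfl⟩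
  have hscal : ∀ x : E, (∀ y, ρ x * ρ y = ρ y * ρ x) →
      ∀ g, ρ.character (x * g) = ρ.character x / ρ.character 1 * ρ.character g := by
    intro x hx g
    obtain ⟨c, hc⟩ := CharExt.exists_scalar_of_commute ρ (ρ x) hx
    have h1 : ∀ y, ρ.character (x * y) = c * ρ.character y := fun y => by
      show LinearMap.trace ℂ _ (ρ (x * y)) = c * LinearMap.trace ℂ _ (ρ y)
      rw [map_mul, hc, smul_mul_assoc, one_mul, map_smul, smul_eq_mul]
    rw [h1, show ρ.character x = c * ρ.character 1 by rw [← h1, mul_one],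
      mul_div_cancel_right₀ _ hb1]
  let R₀ : Subgroup E :=
    { carrier := {x | ∀ y, ρ x * ρ y = ρ y * ρ x}
      one_mem' := fun y => by rw [map_one, one_mul, mul_one]
      mul_mem' := fun {a b} ha hb y => by
        rw [map_mul, mul_assoc, hb y, ← mul_assoc, ha y, mul_assoc]
      inv_mem' := fun {a} ha y => by
        have h1 := congrArg (fun T => ρ a⁻¹ * T * ρ a⁻¹) (ha y)
        simp only [← mul_assoc, ← map_mul, inv_mul_cancel, one_mul] at h1
        simp only [mul_assoc, mul_inv_cancel, mul_one] at h1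
        rw [← map_mul, ← map_mul, ← h1] }
  have hZR : ∀ z : E, (z : G) ∈ Z → z ∈ R₀ := fun z hz y => by
    rw [← map_mul, ← map_mul]
    exact congrArg ρ (Subtype.ext (h.commute hz y))
  have hne : ∀ x ∈ R₀, ρ.character x ≠ 0 := fun x hx h0 => hb1 (by
    have := hscal x hx x⁻¹
    rwa [mul_inv_cancel, h0, zero_div, zero_mul] at this)
  have hvan : ∀ x, x ∉ R₀ → ρ.character x = 0 := by
    intro x hx
    by_contra h0
    apply hx
    intro y
    have hz : ((y * x * y⁻¹ * x⁻¹ : E) : G) ∈ Z := h.comm y y.2 x x.2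
    obtain ⟨c, hc⟩ := CharExt.exists_scalar_of_commute ρ (ρ (y * x * y⁻¹ * x⁻¹)) (hZR _ hz)
    have h1 : ρ.character (y * x * y⁻¹) = c * ρ.character x := by
      conv_lhs => rw [show y * x * y⁻¹ = (y * x * y⁻¹ * x⁻¹) * x by group]
      show LinearMap.trace ℂ _ (ρ (_ * x)) = c * LinearMap.trace ℂ _ (ρ x)
      rw [map_mul, hc, smul_mul_assoc, one_mul, map_smul, smul_eq_mul]
    rw [Char.irr_isClassFunction ⟨k, ρ, hρ, rfl⟩ x y] at h1
    rw [(mul_eq_right₀ h0).1 h1.symm, one_smul] at hc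
    rw [← map_mul ρ y x, show y * x = (y * x * y⁻¹ * x⁻¹) * (x * y) by group, map_mul ρ _ (x * y),
      hc, one_mul, map_mul]
  have hcomm : ∀ x : E, x ∈ R₀ ↔ ∀ (y : E) (hz : kap (y : G) x ∈ E),
      ρ ⟨kap (y : G) x, hz⟩ = 1 := by
    intro x
    constructor
    · intro hx y hz
      rw [show (⟨kap (y : G) x, hz⟩ : E) = y * x * y⁻¹ * x⁻¹ from Subtype.ext rfl, map_mul,
        map_mul, map_mul, ← hx y, mul_assoc (ρ x) (ρ y), ← map_mul ρ y, mul_inv_cancel, map_one,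
        mul_one, ← map_mul, mul_inv_cancel, map_one]
    · intro hx y
      have h1 := hx y (y * x * y⁻¹ * x⁻¹).2
      rw [← map_mul ρ y x, show y * x = (y * x * y⁻¹ * x⁻¹) * (x * y) by group, map_mul ρ _ (x * y),
        show y * x * y⁻¹ * x⁻¹ = (⟨kap (y : G) x, (y * x * y⁻¹ * x⁻¹).2⟩ : E) from rfl, h1,
        one_mul, map_mul]
  have hαR : ∀ (s : S) (x : E), x ∈ R₀ → (⟨α s x, hαE s x x.2⟩ : E) ∈ R₀ := by
    intro s x hx
    rw [hcomm] at hx ⊢
    intro y hz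
    have hy : α s⁻¹ (y : G) ∈ E := hαE _ y y.2
    have hzZ := h.comm _ hy (x : G) x.2
    have h1 : kap (y : G) (α s x) = kap (α s⁻¹ (y : G)) x := by
      rw [← hαZ s _ hzZ, ← MulEquiv.coe_toMonoidHom, kap_map]
      congr 1
      show (y : G) = α s (α s⁻¹ y)
      rw [← MulAut.mul_apply, ← map_mul, mul_inv_cancel, map_one, MulAut.one_apply]
    rw [← hx ⟨_, hy⟩ (h.le hzZ)]
    exact congrArg ρ (Subtype.ext h1)
  let R : Subgroup G := R₀.map E.subtype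
  have hRE : R ≤ E := Subgroup.map_subtype_le R₀
  have hRmem : ∀ x (hx : x ∈ E), x ∈ R ↔ (⟨x, hx⟩ : E) ∈ R₀ := fun x hx =>
    ⟨fun ⟨y, hy, hyx⟩ => (show (⟨x, hx⟩ : E) = y from Subtype.ext hyx.symm) ▸ hy,
      fun h => ⟨_, h, rfl⟩⟩
  let ν : G → ℂ := fun x => if hx : x ∈ E then ρ.character ⟨x, hx⟩ / ρ.character 1 else 0
  have hν : ∀ x : E, ν x = ρ.character x / ρ.character 1 := fun x => dif_pos x.2
  have hR : ∀ x : E, x ∈ R₀ → (x : G) ∈ R := fun x hx => ⟨x, hx, rfl⟩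
  have hνm : ∀ a ∈ R, ∀ b ∈ R, ν (a * b) = ν a * ν b := by
    rintro _ ⟨a, ha, rfl⟩ _ ⟨b, hb, rfl⟩
    show ν ((a * b : E) : G) = ν (a : G) * ν (b : G)
    rw [hν, hν, hν, hscal a ha b, mul_div_assoc]
  have hν1 : ν 1 = 1 := by
    rw [← OneMemClass.coe_one E, hν, div_self hb1]
  have hνpow : ∀ x ∈ R, ∀ j : ℕ, ν (x ^ j) = ν x ^ j := by
    intro x hx j
    induction j with
    | zero => simpa using hν1
    | succ j ih => rw [pow_succ, pow_succ, hνm _ (R.pow_mem hx j) _ hx, ih]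
  have hν0 : ∀ x : E, x ∈ R₀ → ν (x : G) ≠ 0 := fun x hx => by
    rw [hν]; exact div_ne_zero (hne x hx) hb1
  have hνinv : ∀ x : E, x ∈ R₀ → ν ((x⁻¹ : E) : G) = (ν (x : G))⁻¹ := fun x hx => by
    apply eq_inv_of_mul_eq_one_left
    rw [← hνm _ (hR _ (inv_mem hx)) _ (hR _ hx)]
    show ν (((x⁻¹ * x : E)) : G) = 1
    rw [inv_mul_cancel]
    exact hν1
  have hτR : ∀ x : E, (⟨τ x, hτE x x.2⟩ : E) ∈ R₀ ↔ x ∈ R₀ := by
    intro x
    have e1 : (⟨τ x, hτE x x.2⟩ : E) = ⟨p x, h.le (hpZ x x.2)⟩ * x⁻¹ :=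
      Subtype.ext (hτ x x.2)
    rw [e1, Subgroup.mul_mem_cancel_left _
      (hZR ⟨p x, h.le (hpZ x x.2)⟩ (hpZ x x.2)), inv_mem_iff]
  have hτval : ∀ x : E, x ∈ R₀ → (ρ.character ⟨τ x, hτE x x.2⟩ = ρ.character x ↔
      ν (p (x : G)) = ν (x : G) ^ 2) := by
    intro x hx
    have hz := hZR ⟨p x, h.le (hpZ x x.2)⟩ (hpZ x x.2)
    have e1 : (⟨τ x, hτE x x.2⟩ : E) = ⟨p x, h.le (hpZ x x.2)⟩ * x⁻¹ := Subtype.ext (hτ x x.2)
    rw [e1, ← div_left_inj' hb1 (a := ρ.character _) (b := ρ.character x), ← hν, ← hν]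
    show ν (p (x : G) * ((x⁻¹ : E) : G)) = ν (x : G) ↔ _
    rw [hνm (p x) (hR _ hz) _ (hR _ (inv_mem hx)), hνinv x hx, mul_inv_eq_iff_eq_mul₀ (hν0 x hx),
      pow_two]
  constructor
  · intro hS x
    by_cases hx : x ∈ R₀
    · rw [hτval x hx]
      refine hpν R ν hRE hνm hν1 ?_ ?_ x ⟨x, hx, rfl⟩
      · rintro s _ ⟨y, hy, rfl⟩
        exact ⟨_, hαR s y hy, rfl⟩
      · rintro s _ ⟨y, hy, rfl⟩
        show ν (((⟨α s y, hαE s y y.2⟩ : E)) : G) = ν (y : G)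
        rw [hν, hν, hS s y]
    · rw [hvan x hx, hvan _ (fun hc => hx ((hτR x).1 hc))]
  · intro hT s x
    by_cases hx : x ∈ R₀
    · have hy := hαR s x hx
      set y : E := ⟨α s x, hαE s x x.2⟩
      have h1 : ν (y : G) ^ 2 = ν (x : G) ^ 2 := by
        rw [← (hτval y hy).1 (hT y), ← (hτval x hx).1 (hT x)]
        exact congrArg ν (hpα s x x.2)
      have h2 : ∀ z : E, z ∈ R₀ → ν (z : G) ^ Nat.card G = 1 := fun z hz => by
        rw [← hνpow _ (hR z hz), pow_card_eq_one', hν1]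
      have h3 : ν (y : G) / ν (x : G) = 1 := eq_one_of_pow h.odd.coprime_two_right
        (by rw [div_pow, h2 y hy, h2 x hx, div_one])
        (by rw [div_pow, h1, div_self (pow_ne_zero _ (hν0 x hx))])
      rw [div_eq_one_iff_eq (hν0 x hx), hν, hν, div_left_inj' hb1] at h3
      exact h3
    · rw [hvan x hx, hvan _ fun hc => hx ?_]
      have h1 := hαR s⁻¹ _ hc
      have e1 : α s⁻¹ (α s (x : G)) = x := by
        rw [← MulAut.mul_apply, ← map_mul, inv_mul_cancel, map_one, MulAut.one_apply]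
      rwa [show (⟨α s⁻¹ (α s (x : G)), _⟩ : E) = x from Subtype.ext e1] at h1

/-- The correspondence in the model. -/
theorem model_corr (h : ClassTwo E Z) [E.Normal] [Fintype E] [Fintype D] (hED : E ⊔ D = ⊤)
    (hmeet : E ⊓ D = Z) (α : S →* MulAut G) (hcop : (Nat.card G).Coprime (Nat.card S))
    (hαE : ∀ s, ∀ e ∈ E, α s e ∈ E) (hαD : ∀ s, ∀ d ∈ D, α s d = d)
    (hfix : ∀ e ∈ E, (∀ s, α s e = e) → e ∈ Z) :
    (∀ χ : IrrCharacter G, (∀ s g, (χ : G → ℂ) (α s g) = (χ : G → ℂ) g) →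
        ∃ β : IrrCharacter D, ∀ β', Odd (Glauberman.mult D.subtype χ β') ↔ β' = β) ∧
      (∀ χ χ' : IrrCharacter G, (∀ s g, (χ : G → ℂ) (α s g) = (χ : G → ℂ) g) →
        (∀ s g, (χ' : G → ℂ) (α s g) = (χ' : G → ℂ) g) → ∀ β : IrrCharacter D,
        Odd (Glauberman.mult D.subtype χ β) → Odd (Glauberman.mult D.subtype χ' β) → χ = χ') ∧
      ∀ β : IrrCharacter D, ∃ χ : IrrCharacter G,
        (∀ s g, (χ : G → ℂ) (α s g) = (χ : G → ℂ) g) ∧ Odd (Glauberman.mult D.subtype χ β) := by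
  have hαZ : ∀ s, ∀ z ∈ Z, α s z = z := fun s z hz =>
    hαD s z ((hmeet ▸ hz : z ∈ E ⊓ D)).2
  obtain ⟨p, hpZ, hpmul, hpz, hpα, hpσ, hpν⟩ := exists_quadratic h α hcop hαE hαZ hfix
  obtain ⟨τ, hτ2, hτE', hτD⟩ := exists_tau h hED hmeet hpZ hpmul hpz fun d hd e he => by
    have h1 := hpσ (MulAut.conj d) (fun x hx => (inferInstance : E.Normal).conj_mem x hx d)
      (fun s x => by simp [map_mul, map_inv, hαD s d hd])
      (fun z hz => by simp [← h.commute hz d]) e he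
    simpa using h1
  have hτE : ∀ e ∈ E, τ e ∈ E := fun e he =>
    hτE' e he ▸ E.mul_mem (h.le (hpZ e he)) (E.inv_mem he)
  have key : ∀ χ : IrrCharacter G, (∀ s g, (χ : G → ℂ) (α s g) = (χ : G → ℂ) g) ↔
      ∀ g, (χ : G → ℂ) (τ g) = (χ : G → ℂ) g := by
    intro χ
    have hs : ∀ s : S, α s ^ Nat.card S = 1 := fun s => by
      rw [← map_pow, pow_card_eq_one', map_one]
    constructor
    · intro hχ
      refine inv_of_constituent_inv hED τ hτE (fun d hd => (hτD d).1 hd) hτ2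
        h.odd.coprime_two_right χ.2 fun β hβ => ?_
      exact (inv_iff_tau h α hαE hαZ hpZ hpα hpν τ hτE hτE' β).1 fun s e =>
        constituent_inv hED (α s) (hαE s) (hαD s) (hs s) hcop χ.2 (hχ s) β.2 hβ e
    · intro hχ s
      refine inv_of_constituent_inv hED (α s) (hαE s) (hαD s) (hs s) hcop χ.2 fun β hβ => ?_
      exact (inv_iff_tau h α hαE hαZ hpZ hpα hpν τ hτE hτE' β).2 (fun e =>
        constituent_inv hED τ hτE (fun d hd => (hτD d).1 hd) hτ2 h.odd.coprime_two_right χ.2 hχ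
          β.2 hβ e) s
  let φ : zpowers τ →* MulAut G := (zpowers τ).subtype
  have hφ : ∀ a : zpowers τ, φ a = 1 ∨ φ a = τ := by
    rintro ⟨a, ha⟩
    obtain ⟨j, rfl⟩ := mem_zpowers_iff.1 ha
    rcases Int.even_or_odd' j with ⟨i, rfl | rfl⟩
    · left
      show τ ^ (2 * i) = 1
      rw [zpow_mul, zpow_ofNat, hτ2, one_zpow]
    · right
      show τ ^ (2 * i + 1) = τ
      rw [zpow_add_one, zpow_mul, zpow_ofNat, hτ2, one_zpow, one_mul]
  have hinv : ∀ χ : IrrCharacter G, Glauberman.IsInv φ (χ : G → ℂ) ↔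
      ∀ g, (χ : G → ℂ) (τ g) = (χ : G → ℂ) g := by
    refine fun χ => ⟨fun hc g => hc ⟨τ, mem_zpowers τ⟩ g, fun hc a g => ?_⟩
    rcases hφ a with e | e <;> rw [e]
    · rfl
    · exact hc g
  have hA : IsPGroup 2 (zpowers τ) := fun a => ⟨1, Subtype.ext (by
    rcases hφ a with e | e
    · show (a : MulAut G) ^ (2 ^ 1) = 1
      rw [show (a : MulAut G) = 1 from e, one_pow]
    · show (a : MulAut G) ^ (2 ^ 1) = 1
      rw [show (a : MulAut G) = τ from e, pow_one, hτ2])⟩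
  have hι : Glauberman.IsFixedEmb φ D.subtype := by
    refine ⟨D.subtype_injective, fun g => ⟨?_, fun hg => ?_⟩⟩
    · rintro ⟨d, rfl⟩ a
      rcases hφ a with e | e <;> rw [e]
      · rfl
      · exact (hτD _).1 d.2
    · exact ⟨⟨g, (hτD g).2 (hg ⟨τ, mem_zpowers τ⟩)⟩, rfl⟩
  have hp : ¬ 2 ∣ Nat.card G := h.odd.not_two_dvd_nat
  have hodd : ∀ m : ℕ, (m : ZMod 2) ≠ 0 ↔ Odd m := fun m => by
    rw [ne_eq, ZMod.natCast_eq_zero_iff_even, Nat.not_even_iff_odd]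
  refine ⟨fun χ hχ => ?_, fun χ χ' hχ hχ' β h1 h2 => ?_, fun β => ?_⟩
  · obtain ⟨β, hβ, hu⟩ := Glauberman.exists_corr hA hι hp ((hinv χ).2 ((key χ).1 hχ))
    refine ⟨β, fun β' => ⟨fun ho => ?_, ?_⟩⟩
    · by_contra hne
      exact (hodd _).2 ho (hu β' hne)
    · rintro rfl
      rw [← hodd]
      rcases hβ with e | e <;> rw [e] <;> decide
  · exact Glauberman.corr_injective hA hι hp ((hinv χ).2 ((key χ).1 hχ))
      ((hinv χ').2 ((key χ').1 hχ')) ((hodd _).2 h1) ((hodd _).2 h2)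
  · obtain ⟨χ, hχ, hm⟩ := Glauberman.corr_surjective hA hι hp β
    exact ⟨χ, (key χ).2 ((hinv χ).1 hχ), (hodd _).1 hm⟩

end Cfsg.Agent.IsaacsCorr
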