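import Cfsg.Agent.IsaacsCorr.Basic

/-!
# The quadratic refinement of the commutator pairing in odd order

`E` has class at most two with commutators in a central subgroup `Z`; a coprime group fixing
nothing outside `Z` gives by averaging a map `p : E → Z` with `p (ab) = p a * p b * [a, b]` and
`p z = z ^ 2`.
-/

set_option autoImplicit false
set_option linter.style.haveILetI false
set_option linter.unusedSectionVars false

namespace Cfsg.Agent.IsaacsCorr

open Subgroup

universe u v

variable {G : Type u} [Group G] [Fintype G] {E Z : Subgroup G}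

/-- The commutator `a b a⁻¹ b⁻¹`. -/
def kap (a b : G) : G := a * b * a⁻¹ * b⁻¹

/-- Class at most two inside a group of odd order. -/
structure ClassTwo (E Z : Subgroup G) : Prop where
  le : Z ≤ E
  central : Z ≤ center G
  comm : ∀ a ∈ E, ∀ b ∈ E, kap a b ∈ Z
  odd : Odd (Nat.card G)

theorem kap_inv (a b : G) : kap a b = (kap b a)⁻¹ := by simp [kap, mul_assoc]

theorem kap_map {H : Type*} [Group H] (f : G →* H) (a b : G) :
    f (kap a b) = kap (f a) (f b) := by simp [kap]

theorem mul_eq_kap (a b : G) : a * b = kap a b * (b * a) := by simp [kap, mul_assoc]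

theorem ClassTwo.commute (h : ClassTwo E Z) {z : G} (hz : z ∈ Z) (g : G) : z * g = g * z :=
  (mem_center_iff.1 (h.central hz) g).symm

theorem ClassTwo.kap_central_right (h : ClassTwo E Z) (a : G) {z : G} (hz : z ∈ Z) :
    kap a z = 1 := by
  rw [kap, ← h.commute hz a, mul_inv_cancel_right, mul_inv_cancel]

theorem ClassTwo.kap_mul_left (h : ClassTwo E Z) {a b c : G} (ha : a ∈ E) (hb : b ∈ E)
    (hc : c ∈ E) : kap (a * b) c = kap a c * kap b c := by
  have hz := h.commute (h.comm b hb c hc)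
  calc kap (a * b) c = a * kap b c * (c * a⁻¹ * c⁻¹) := by simp [kap, mul_assoc]
    _ = kap b c * a * (c * a⁻¹ * c⁻¹) := by rw [← hz a]
    _ = kap b c * kap a c := by simp [kap, mul_assoc]
    _ = kap a c * kap b c := hz _

theorem ClassTwo.kap_mul_right (h : ClassTwo E Z) {a b c : G} (ha : a ∈ E) (hb : b ∈ E)
    (hc : c ∈ E) : kap a (b * c) = kap a b * kap a c := by
  rw [kap_inv, h.kap_mul_left hb hc ha, mul_inv_rev, ← kap_inv, ← kap_inv,
    h.commute (h.comm a ha c hc)]

/-- The exponent inverting `2`. -/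
noncomputable def half (G : Type u) [Group G] : ℕ := (Nat.card G + 1) / 2

theorem pow_two_half (h : ClassTwo E Z) (x : G) : x ^ (2 * half G) = x := by
  obtain ⟨k, hk⟩ := h.odd
  have : 2 * half G = Nat.card G + 1 := by rw [half]; omega
  rw [this, pow_succ, pow_card_eq_one', one_mul]

/-- The underlying set of `E`, to carry the Baer addition. -/
@[ext] structure Baer (E : Subgroup G) where
  /-- the element -/
  val : G
  mem : val ∈ E

theorem ClassTwo.kap_pow (h : ClassTwo E Z) {a b : G} (ha : a ∈ E) (hb : b ∈ E) :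
    (kap b a) ^ half G ∈ Z := Z.pow_mem (h.comm b hb a ha) _

/-- The abelian group of Baer. -/
@[instance_reducible] noncomputable def baerGroup (h : ClassTwo E Z) : CommGroup (Baer E) where
  mul a b := ⟨a.val * b.val * (kap b.val a.val) ^ half G,
    E.mul_mem (E.mul_mem a.mem b.mem) (h.le (h.kap_pow a.mem b.mem))⟩
  one := ⟨1, E.one_mem⟩
  inv a := ⟨a.val⁻¹, E.inv_mem a.mem⟩
  mul_assoc a b c := by
    apply Baer.ext
    show a.val * b.val * (kap b.val a.val) ^ half G * c.val *
        (kap c.val (a.val * b.val * (kap b.val a.val) ^ half G)) ^ half G =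
      a.val * (b.val * c.val * (kap c.val b.val) ^ half G) *
        (kap (b.val * c.val * (kap c.val b.val) ^ half G) a.val) ^ half G
    have hz1 := h.kap_pow a.mem b.mem
    have hz2 := h.kap_pow b.mem c.mem
    have hab := E.mul_mem a.mem b.mem
    have hbc := E.mul_mem b.mem c.mem
    rw [h.kap_mul_right c.mem hab (h.le hz1), h.kap_central_right c.val hz1, mul_one,
      h.kap_mul_right c.mem a.mem b.mem, h.kap_mul_left hbc (h.le hz2) a.mem,
      kap_inv ((kap c.val b.val) ^ half G) a.val, h.kap_central_right a.val hz2, inv_one, mul_one,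
      h.kap_mul_left b.mem c.mem a.mem,
      Commute.mul_pow (h.commute (h.comm c.val c.mem a.val a.mem) _),
      Commute.mul_pow (h.commute (h.comm b.val b.mem a.val a.mem) _)]
    set u := (kap b.val a.val) ^ half G with hu
    set v := (kap c.val b.val) ^ half G with hv
    set w := (kap c.val a.val) ^ half G with hw
    have e1 : a.val * b.val * u * c.val = a.val * b.val * c.val * u := by
      rw [mul_assoc (a.val * b.val) u, h.commute hz1, ← mul_assoc]
    have hwz : w ∈ Z := h.kap_pow a.mem c.mem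
    rw [e1]
    simp only [mul_assoc]
    congr 3
    rw [h.commute hz1 (w * v), h.commute hwz v]
    simp only [mul_assoc]
    rw [h.commute hwz u]
  one_mul a := by
    apply Baer.ext
    show 1 * a.val * (kap a.val 1) ^ half G = a.val
    simp [kap]
  mul_one a := by
    apply Baer.ext
    show a.val * 1 * (kap 1 a.val) ^ half G = a.val
    simp [kap]
  inv_mul_cancel a := by
    apply Baer.ext
    show a.val⁻¹ * a.val * (kap a.val a.val⁻¹) ^ half G = 1
    simp [kap]
  mul_comm a b := by
    apply Baer.ext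
    show a.val * b.val * (kap b.val a.val) ^ half G =
      b.val * a.val * (kap a.val b.val) ^ half G
    have hz := h.comm a.val a.mem b.val b.mem
    rw [mul_eq_kap a.val b.val, h.commute hz, mul_assoc (b.val * a.val), kap_inv b.val a.val,
      inv_pow]
    congr 1
    rw [mul_inv_eq_iff_eq_mul, ← pow_add, ← two_mul, pow_two_half h]

/-- Averaging over a coprime group fixing nothing outside `Z`. -/
theorem exists_quadratic (h : ClassTwo E Z) {S : Type v} [Group S] [Finite S] (α : S →* MulAut G)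
    (hcop : (Nat.card G).Coprime (Nat.card S)) (hαE : ∀ s, ∀ e ∈ E, α s e ∈ E)
    (hαZ : ∀ s, ∀ z ∈ Z, α s z = z) (hfix : ∀ e ∈ E, (∀ s, α s e = e) → e ∈ Z) :
    ∃ p : G → G, (∀ e ∈ E, p e ∈ Z) ∧ (∀ a ∈ E, ∀ b ∈ E, p (a * b) = p a * p b * kap a b) ∧
      (∀ z ∈ Z, p z = z ^ 2) ∧ (∀ s, ∀ e ∈ E, p (α s e) = p e) ∧
      (∀ σ : MulAut G, (∀ e ∈ E, σ e ∈ E) → (∀ s e, σ (α s e) = α s (σ e)) →
        (∀ z ∈ Z, σ z = z) → ∀ e ∈ E, p (σ e) = p e) ∧
      ∀ (R : Subgroup G) (ν : G → ℂ), R ≤ E → (∀ a ∈ R, ∀ b ∈ R, ν (a * b) = ν a * ν b) →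
        ν 1 = 1 → (∀ s, ∀ r ∈ R, α s r ∈ R) → (∀ s, ∀ r ∈ R, ν (α s r) = ν r) →
        ∀ r ∈ R, ν (p r) = ν r ^ 2 := by
  classical
  letI := baerGroup h
  letI := Fintype.ofFinite S
  have hmul : ∀ x y : Baer E, (x * y).val = x.val * y.val * (kap y.val x.val) ^ half G :=
    fun x y => rfl
  have hone : (1 : Baer E).val = 1 := rfl
  have hmulz : ∀ x y : Baer E, y.val ∈ Z → (x * y).val = x.val * y.val := by
    intro x y hy
    rw [hmul, kap_inv, h.kap_central_right x.val hy, inv_one, one_pow, mul_one]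
  let P : G → Baer E := fun e =>
    if he : e ∈ E then ∏ s : S, (⟨α s e, hαE s e he⟩ : Baer E) else 1
  have hP : ∀ e (he : e ∈ E), P e = ∏ s : S, (⟨α s e, hαE s e he⟩ : Baer E) :=
    fun e he => dif_pos he
  have hmap : ∀ σ : MulAut G, (hσ : ∀ e ∈ E, σ e ∈ E) → ∀ (f : S → Baer E),
      σ (∏ s, f s).val = (∏ s, (⟨σ (f s).val, hσ _ (f s).mem⟩ : Baer E)).val := by
    intro σ hσ f
    let F : Baer E →* Baer E :=
      MonoidHom.mk' (fun x => ⟨σ x.val, hσ _ x.mem⟩) fun x y => Baer.ext (by
        show σ (x * y).val = σ x.val * σ y.val * (kap (σ y.val) (σ x.val)) ^ half G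
        rw [hmul, map_mul, map_mul, map_pow]
        exact congrArg _ (congrArg (· ^ half G) (kap_map σ.toMonoidHom y.val x.val)))
    exact congrArg Baer.val (map_prod F f Finset.univ)
  have hPZ : ∀ e ∈ E, (P e).val ∈ Z := by
    intro e he
    refine hfix _ (P e).mem fun t => ?_
    rw [hP e he, hmap (α t) (hαE t)]
    congr 1
    refine Fintype.prod_equiv (Equiv.mulLeft t) _ _ fun s => Baer.ext ?_
    show α t (α s e) = α (t * s) e
    rw [map_mul, MulAut.mul_apply]
  obtain ⟨m, hm⟩ : ∃ m : ℕ, ∀ x : G, x ^ (Nat.card S * m) = x := by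
    rcases Nat.lt_or_ge 1 (Nat.card G) with h1 | h1
    · obtain ⟨m, hm⟩ := Nat.exists_mul_mod_eq_one_of_coprime hcop.symm h1
      refine ⟨m, fun x => ?_⟩
      rw [← Nat.div_add_mod (Nat.card S * m) (Nat.card G), hm.2, pow_add, pow_mul,
        pow_card_eq_one', one_pow, one_mul, pow_one]
    · haveI : Subsingleton G :=
        (Nat.card_eq_one_iff_unique.1 (le_antisymm h1 Nat.card_pos)).1
      exact ⟨0, fun x => Subsingleton.elim _ _⟩
  let p : G → G := fun e => (P e).val ^ (2 * m)
  have hPmul : ∀ a ∈ E, ∀ b ∈ E,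
      P (a * b * (kap b a) ^ half G) = P a * P b := by
    intro a ha b hb
    have hab : a * b * (kap b a) ^ half G ∈ E :=
      E.mul_mem (E.mul_mem ha hb) (h.le (h.kap_pow ha hb))
    rw [hP _ hab, hP a ha, hP b hb, ← Finset.prod_mul_distrib]
    refine Finset.prod_congr rfl fun s _ => Baer.ext ?_
    show α s (a * b * (kap b a) ^ half G) = α s a * α s b * (kap (α s b) (α s a)) ^ half G
    rw [map_mul, map_mul, map_pow]
    exact congrArg _ (congrArg (· ^ half G) (kap_map (α s).toMonoidHom b a))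
  have hppow : ∀ a ∈ E, ∀ b ∈ E, p (a * b * (kap b a) ^ half G) = p a * p b := by
    intro a ha b hb
    show (P _).val ^ (2 * m) = (P a).val ^ (2 * m) * (P b).val ^ (2 * m)
    rw [hPmul a ha b hb, hmulz _ _ (hPZ b hb),
      Commute.mul_pow (h.commute (hPZ a ha) (P b).val)]
  have hpz : ∀ z ∈ Z, p z = z ^ 2 := by
    intro z hz
    have hk : ∀ t : Finset S,
        (∏ s ∈ t, (⟨α s z, hαE s z (h.le hz)⟩ : Baer E)).val = z ^ t.card := by
      intro t
      induction t using Finset.induction_on with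
      | empty => simpa using hone
      | insert a t hat ih =>
        rw [Finset.prod_insert hat, hmulz _ _ (by rw [ih]; exact Z.pow_mem hz _), ih,
          Finset.card_insert_of_notMem hat, pow_succ']
        exact congrArg (· * _) (hαZ a z hz)
    show (P z).val ^ (2 * m) = _
    rw [hP z (h.le hz), hk, Finset.card_univ, ← Nat.card_eq_fintype_card, ← pow_mul,
      show Nat.card S * (2 * m) = (Nat.card S * m) * 2 by ring, pow_mul, hm]
  refine ⟨p, fun e he => Z.pow_mem (hPZ e he) _, fun a ha b hb => ?_, hpz, fun s e he => ?_,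
    fun σ hσE hσc hσZ e he => ?_, fun R ν hRE hνm hν1 hαR hνα r hr => ?_⟩
  · set c := a * b * (kap b a) ^ half G with hc
    set w := ((kap b a) ^ half G)⁻¹ with hw
    have hcE : c ∈ E := E.mul_mem (E.mul_mem ha hb) (h.le (h.kap_pow ha hb))
    have hwZ : w ∈ Z := Z.inv_mem (h.kap_pow ha hb)
    have h1 := hppow c hcE w (h.le hwZ)
    rw [kap_inv, h.kap_central_right c hwZ, inv_one, one_pow, mul_one, hppow a ha b hb,
      hpz w hwZ] at h1
    rw [show c * w = a * b by simp [hc, hw]] at h1
    rw [h1, hw, inv_pow, ← pow_mul, mul_comm (half G), pow_two_half h, ← kap_inv]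
  · show (P (α s e)).val ^ (2 * m) = (P e).val ^ (2 * m)
    rw [hP e he, hP _ (hαE s e he)]
    congr 2
    refine Fintype.prod_equiv (Equiv.mulRight s) _ _ fun t => Baer.ext ?_
    show α t (α s e) = α (t * s) e
    rw [map_mul, MulAut.mul_apply]
  · show (P (σ e)).val ^ (2 * m) = (P e).val ^ (2 * m)
    have h1 := hσZ _ (hPZ e he)
    rw [hP e he, hmap σ hσE] at h1
    rw [hP e he, hP _ (hσE e he), ← h1]
    congr 2
    exact Finset.prod_congr rfl fun t _ => Baer.ext (hσc t e).symm
  · have hpow : ∀ x ∈ R, ∀ k : ℕ, ν (x ^ k) = ν x ^ k := by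
      intro x hx k
      induction k with
      | zero => simpa using hν1
      | succ k ih => rw [pow_succ, pow_succ, hνm _ (R.pow_mem hx k) _ hx, ih]
    have hk : ∀ x ∈ R, ∀ y ∈ R, kap y x ∈ R := fun x hx y hy =>
      R.mul_mem (R.mul_mem (R.mul_mem hy hx) (R.inv_mem hy)) (R.inv_mem hx)
    have hν0 : ∀ x ∈ R, ν x * ν x⁻¹ = 1 := fun x hx => by
      rw [← hνm x hx _ (R.inv_mem hx), mul_inv_cancel, hν1]
    have hkap : ∀ x ∈ R, ∀ y ∈ R, ν (kap y x) = 1 := by
      intro x hx y hy
      rw [kap, hνm _ (R.mul_mem (R.mul_mem hy hx) (R.inv_mem hy)) _ (R.inv_mem hx),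
        hνm _ (R.mul_mem hy hx) _ (R.inv_mem hy), hνm y hy x hx]
      linear_combination (ν x * ν x⁻¹) * hν0 y hy + hν0 x hx
    have hprod : ∀ t : Finset S,
        (∏ s ∈ t, (⟨α s r, hαE s r (hRE hr)⟩ : Baer E)).val ∈ R ∧
        ν (∏ s ∈ t, (⟨α s r, hαE s r (hRE hr)⟩ : Baer E)).val = ν r ^ t.card := by
      intro t
      induction t using Finset.induction_on with
      | empty =>
        rw [Finset.prod_empty, hone]
        exact ⟨R.one_mem, by simpa using hν1⟩
      | insert a t hat ih =>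
        obtain ⟨ih1, ih2⟩ := ih
        have hx := hαR a r hr
        rw [Finset.prod_insert hat, hmul]
        refine ⟨R.mul_mem (R.mul_mem hx ih1) (R.pow_mem (hk _ hx _ ih1) _), ?_⟩
        rw [hνm _ (R.mul_mem hx ih1) _ (R.pow_mem (hk _ hx _ ih1) _), hpow _ (hk _ hx _ ih1),
          hkap _ hx _ ih1, one_pow, mul_one, hνm _ hx _ ih1, ih2,
          Finset.card_insert_of_notMem hat, pow_succ']
        exact congrArg (· * _) (hνα a r hr)
    show ν ((P r).val ^ (2 * m)) = _
    rw [hP r (hRE hr), hpow _ (hprod _).1, (hprod _).2, Finset.card_univ,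
      ← Nat.card_eq_fintype_card, ← pow_mul,
      show Nat.card S * (2 * m) = (Nat.card S * m) * 2 by ring, pow_mul, ← hpow r hr, hm]

end Cfsg.Agent.IsaacsCorr
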