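import Cfsg.Agent.IsaacsCorr.Model
import Cfsg.Agent.IsaacsCorr.Lift
import Cfsg.Agent.IsaacsCorr.Cover
import Cfsg.Agent.IsaacsCorr.Defs

/-!
# The correspondence over an invariant character

A cover to which the character extends turns the layer into the model of `Model.lean`.
-/

set_option autoImplicit false
set_option linter.style.haveILetI false
set_option linter.unusedSectionVars false

namespace Cfsg.Agent.IsaacsCorr

open Cfsg Cfsg.Agent Subgroup
open scoped Classical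

universe u

/-- Inner products on the kernel of the projection of a part of the cover are inner products on
`L`. -/
theorem classInner_ker {X U : Type u} [Group X] [Group U] (f : X →* U) (N' : Subgroup X)
    (L : Subgroup U) [Fintype L] (δ : X → ℂ) (φ : L → ℂ) (hmap : N'.map f = L)
    (hinj : ∀ z ∈ N', f z = 1 → z = 1) (hδφ : ∀ (x : N') (h : f x ∈ L), δ x = φ ⟨f x, h⟩)
    {Rh : Subgroup X} (hle : N' ≤ Rh) {B : Type*} [Group B] (p : Rh →* B)
    (hp : ∀ x, p x = 1 ↔ (x : X) ∈ N') [Fintype p.ker] {R : Subgroup U} (hLR : L ≤ R)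
    (F : R → ℂ) (hR : ∀ x : Rh, f x ∈ R) :
    classInner (fun m : p.ker => F ⟨f (m : Rh), hR m⟩) (fun m : p.ker => δ (m : Rh)) =
      classInner (fun n : L => F ⟨n, hLR n.2⟩) φ := by
  have hmem : ∀ m : p.ker, f (m : Rh) ∈ L := fun m => hmap ▸ mem_map_of_mem f ((hp m).1 m.2)
  let q : p.ker →* L := MonoidHom.mk' (fun m => ⟨f (m : Rh), hmem m⟩) fun a b =>
    Subtype.ext (map_mul f ((a : Rh) : X) ((b : Rh) : X))
  have hq : Function.Bijective q := by
    refine ⟨(injective_iff_map_eq_one _).2 fun m hm => ?_, fun n => ?_⟩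
    · exact Subtype.ext (Subtype.ext (hinj _ ((hp m).1 m.2) (congrArg Subtype.val hm)))
    · obtain ⟨x, hx, hxn⟩ : (n : U) ∈ N'.map f := hmap.symm ▸ n.2
      exact ⟨⟨⟨x, hle hx⟩, (hp _).2 hx⟩, Subtype.ext hxn⟩
  rw [← classInner_comp_mulEquiv (MulEquiv.ofBijective q hq)]
  congr 1
  funext m
  exact hδφ ⟨_, (hp m).1 m.2⟩ (hmem m)

theorem irr_ker {X : Type u} [Group X] [Fintype X] (N' : Subgroup X) {δ : X → ℂ}
    (hδN : IsIrrCharacter N' (fun n : N' => δ n)) {Rh : Subgroup X} (hle : N' ≤ Rh) {B : Type u}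
    [Group B] (p : Rh →* B) (hp : ∀ x, p x = 1 ↔ (x : X) ∈ N') :
    IsIrrCharacter p.ker (fun m : p.ker => δ (m : Rh)) := by
  let q : p.ker →* N' := MonoidHom.mk' (fun m => ⟨(m : Rh), (hp m).1 m.2⟩) fun _ _ => rfl
  have hq : Function.Bijective q :=
    ⟨fun a b h => Subtype.ext (Subtype.ext (congrArg Subtype.val h :)),
      fun n => ⟨⟨⟨n, hle n.2⟩, (hp _).2 n.2⟩, rfl⟩⟩
  exact CharInd.irr_comp_surjective q hq.2 hδN

/-- The correspondence over an invariant character of `L`. -/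
theorem tlevel {U : Type u} [Group U] [Fintype U] (T H K L S : Subgroup U) [hT : T.Normal]
    [hK : K.Normal] [hL : L.Normal] [Fintype T] [Fintype H] [Fintype L] (hLK : L ≤ K)
    (hKT : K ≤ T) (hHT : H ≤ T) (hLH : L ≤ H) (hKH : K ⊔ H = T) (hmeet : K ⊓ H = L)
    (hab : ∀ a ∈ K, ∀ b ∈ K, kap a b ∈ L) (hodd : Odd (Nat.card T))
    (hcop : (Nat.card T).Coprime (Nat.card S))
    (hH : ∀ s ∈ S, ∀ x ∈ H, s * x * s⁻¹ * x⁻¹ ∈ L)
    (hfix : ∀ k ∈ K, (∀ s ∈ S, s * k * s⁻¹ * k⁻¹ ∈ L) → k ∈ L) (φ : IrrCharacter L)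
    (hφ : ∀ (x : U) (n : L), (φ : L → ℂ) (CharExt.cj L x n) = (φ : L → ℂ) n) :
    (∀ η : IrrCharacter H, Over hLH (η : H → ℂ) (φ : L → ℂ) → SInv S H (η : H → ℂ)) ∧
      OddCorr hHT (fun χ => SInv S T χ ∧ Over (hLK.trans hKT) χ (φ : L → ℂ))
        (fun η => Over hLH η (φ : L → ℂ)) := by
  obtain ⟨X, _, _, f, N', δ, hf, hN', hmap, hcent, hinj, hδ, hδN, hδφ, hexp⟩ :=
    exists_cover' L φ.2 hφ
  haveI := hN'
  let π := QuotientGroup.mk' N'
  have hπ : Function.Surjective π := QuotientGroup.mk'_surjective N'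
  have hπ1 : ∀ x, π x = 1 ↔ x ∈ N' := fun x => QuotientGroup.eq_one_iff x
  letI := Fintype.ofFinite (X ⧸ N')
  let Th := T.comap f
  let Hh := H.comap f
  let Kh := K.comap f
  have hNl : ∀ x ∈ N', f x ∈ L := fun x hx => hmap ▸ mem_map_of_mem f hx
  have hNT : N' ≤ Th := fun x hx => hKT (hLK (hNl x hx))
  have hNH : N' ≤ Hh := fun x hx => hLH (hNl x hx)
  haveI : (Th.map π).Normal := (inferInstance : Th.Normal).map π hπ
  haveI : (Kh.map π).Normal := (inferInstance : Kh.Normal).map π hπ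
  let Tb := Th.map π
  letI := Fintype.ofFinite Tb
  letI := Fintype.ofFinite Th
  letI := Fintype.ofFinite Hh
  have hker : ∀ x, f x ∈ L → π x ∈ f.ker.map π := by
    intro x hx
    obtain ⟨m, hm, hmx⟩ : f x ∈ N'.map f := hmap.symm ▸ hx
    refine ⟨m⁻¹ * x, ?_, ?_⟩
    · show f (m⁻¹ * x) = 1
      rw [map_mul, map_inv, hmx, inv_mul_cancel]
    · rw [map_mul, map_inv, (hπ1 m).2 hm, inv_one, one_mul]
  have hzc : ∀ z : X, f z = 1 → z ∈ center X := fun z hz =>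
    mem_center_iff.2 fun y => (hcent z hz y).symm
  let Eb := (Kh.map π).subgroupOf Tb
  let Zb := (f.ker.map π).subgroupOf Tb
  let Db := (Hh.map π).subgroupOf Tb
  letI := Fintype.ofFinite Eb
  letI := Fintype.ofFinite Db
  haveI : Eb.Normal := Subgroup.normal_subgroupOf
  let pT : Th →* Tb := π.subgroupMap Th
  have hpT : Function.Surjective pT := π.subgroupMap_surjective Th
  have hpTval : ∀ x : Th, ((pT x : Tb) : X ⧸ N') = π x := fun _ => rfl
  have hpT1 : ∀ x : Th, pT x = 1 ↔ (x : X) ∈ N' := fun x => by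
    rw [Subtype.ext_iff, hpTval]; exact hπ1 _
  have hZc : ∀ y ∈ f.ker.map π, y ∈ center (X ⧸ N') := by
    rintro _ ⟨z, hz, rfl⟩
    refine mem_center_iff.2 fun y => ?_
    obtain ⟨y, rfl⟩ := hπ y
    rw [← map_mul, ← map_mul, hcent z hz y]
  have hTbexp : ∀ y : Tb, y ^ (Nat.card T * (Nat.card L * Nat.card L)) = 1 := by
    intro y
    obtain ⟨x, rfl⟩ := hpT y
    rw [← map_pow, show x ^ (Nat.card T * (Nat.card L * Nat.card L)) = 1 from Subtype.ext (by
      rw [Subgroup.coe_pow, pow_mul, Subgroup.coe_one]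
      refine hexp _ ?_
      rw [map_pow]
      exact congrArg Subtype.val (pow_card_eq_one' (x := (⟨f x, x.2⟩ : T)))), map_one]
  have hLT : Nat.card L ∣ Nat.card T := card_dvd_of_le (hLK.trans hKT)
  have hexpcop : ∀ n, (Nat.card T).Coprime n →
      (Nat.card T * (Nat.card L * Nat.card L)).Coprime n := fun n hn =>
    hn.mul_left ((hn.coprime_dvd_left hLT).mul_left (hn.coprime_dvd_left hLT))
  have hTbcop : (Nat.card Tb).Coprime (Nat.card S) :=
    card_coprime_of_pow hTbexp (hexpcop _ hcop)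
  have hTbodd : Odd (Nat.card Tb) := Nat.coprime_two_right.1
    (card_coprime_of_pow hTbexp (hexpcop 2 hodd.coprime_two_right))
  have hCT : ClassTwo Eb Zb := by
    refine ⟨fun z hz => ?_, fun z hz => ?_, ?_, hTbodd⟩
    · obtain ⟨x, hx, hxz⟩ := hz
      exact ⟨x, show f x ∈ K by rw [show f x = 1 from hx]; exact K.one_mem, hxz⟩
    · exact mem_center_iff.2 fun y => Subtype.ext (mem_center_iff.1 (hZc _ hz) y)
    · rintro a ⟨x, hx, hxa⟩ b ⟨y, hy, hyb⟩
      show kap (a : X ⧸ N') (b : X ⧸ N') ∈ f.ker.map π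
      rw [← show π x = (a : X ⧸ N') from hxa, ← show π y = (b : X ⧸ N') from hyb, ← kap_map π]
      refine hker _ ?_
      rw [kap_map f]
      exact hab _ hx _ hy
  have hEDb : Eb ⊔ Db = ⊤ := by
    rw [eq_top_iff]
    intro y _
    obtain ⟨x, rfl⟩ := hpT y
    obtain ⟨k, hk, h', hh', hkh⟩ := Subgroup.mem_sup_of_normal_left.1
      (hKH.symm ▸ x.2 : f x ∈ K ⊔ H)
    obtain ⟨xk, rfl⟩ := hf k
    have h1 : f (xk⁻¹ * x) = h' := by
      rw [map_mul, map_inv, ← hkh, inv_mul_cancel_left]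
    have h2 : xk ∈ Th := hKT hk
    have e : pT x = pT ⟨xk, h2⟩ * pT ⟨xk⁻¹ * x, Th.mul_mem (Th.inv_mem h2) x.2⟩ := by
      rw [← map_mul]; exact congrArg pT (Subtype.ext (mul_inv_cancel_left _ _).symm)
    rw [e]
    refine Subgroup.mul_mem_sup ⟨xk, hk, rfl⟩ ⟨xk⁻¹ * x, ?_, rfl⟩
    show f (xk⁻¹ * x) ∈ H
    rw [h1]; exact hh'
  have hmeetb : Eb ⊓ Db = Zb := by
    refine le_antisymm ?_ fun z hz => ?_
    · rintro y ⟨⟨x, hx, hxy⟩, ⟨x', hx', hxy'⟩⟩
      show (y : X ⧸ N') ∈ f.ker.map π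
      rw [← show π x' = (y : X ⧸ N') from hxy']
      refine hker x' (hmeet ▸ ⟨?_, hx'⟩)
      have h1 : x⁻¹ * x' ∈ N' := QuotientGroup.eq.1 (hxy.trans hxy'.symm)
      have h2 := K.mul_mem (show f x ∈ K from hx) (hLK (hNl _ h1))
      rwa [← map_mul, mul_inv_cancel_left] at h2
    · obtain ⟨x, hx, hxz⟩ := hz
      refine ⟨⟨x, ?_, hxz⟩, ⟨x, ?_, hxz⟩⟩
      · show f x ∈ K; rw [show f x = 1 from hx]; exact K.one_mem
      · show f x ∈ H; rw [show f x = 1 from hx]; exact H.one_mem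
  -- the operators
  choose sec hsec using hf
  let ψ₀ : X →* MulAut Tb := (MulAut.conjNormal).comp π
  have hψ₀ : ∀ z : X, f z = 1 → ψ₀ z = 1 := fun z hz => MulEquiv.ext fun y => Subtype.ext (by
    show π z * (y : X ⧸ N') * (π z)⁻¹ = y
    rw [← mem_center_iff.1 (hZc _ ⟨z, hz, rfl⟩) (y : X ⧸ N'), mul_inv_cancel_right])
  let α : S →* MulAut Tb := MonoidHom.mk' (fun s => ψ₀ (sec s)) fun s t => by
    have h1 : f ((sec (s : U) * sec (t : U))⁻¹ * sec ((s * t : S) : U)) = 1 := by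
      rw [map_mul, map_inv, map_mul, hsec, hsec, hsec, Subgroup.coe_mul, inv_mul_cancel]
    show ψ₀ (sec ((s * t : S) : U)) = ψ₀ (sec s) * ψ₀ (sec t)
    rw [← map_mul, ← mul_right_inj (ψ₀ (sec (s : U) * sec (t : U)))⁻¹, ← map_inv, ← map_mul,
      hψ₀ _ h1, ← map_mul, inv_mul_cancel, map_one]
  have hαval : ∀ (s : S) (y : Tb),
      ((α s y : Tb) : X ⧸ N') = π (sec s) * y * (π (sec s))⁻¹ := fun _ _ => rfl
  have hαE : ∀ s, ∀ e ∈ Eb, α s e ∈ Eb := fun s e he =>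
    (inferInstance : (Kh.map π).Normal).conj_mem _ he (π (sec s))
  have hαD : ∀ s, ∀ d ∈ Db, α s d = d := by
    rintro s d ⟨x, hx, hxd⟩
    have h1 : ((α s d * d⁻¹ : Tb) : X ⧸ N') = π (kap (sec s) x) := by
      rw [Subgroup.coe_mul, Subgroup.coe_inv, hαval, ← show π x = (d : X ⧸ N') from hxd, kap_map π]
      rfl
    have h2 : α s d * d⁻¹ ∈ Zb := by
      show ((α s d * d⁻¹ : Tb) : X ⧸ N') ∈ f.ker.map π
      rw [h1]
      refine hker _ ?_
      rw [kap_map f, hsec]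
      exact hH s s.2 _ hx
    have h3 : α s (α s d * d⁻¹) = α s d * d⁻¹ := Subtype.ext (by
      rw [hαval, mem_center_iff.1 (hZc ((α s d * d⁻¹ : Tb) : X ⧸ N') h2) (π (sec s)),
        mul_inv_cancel_right])
    have h4 : α s d * d⁻¹ = 1 := eq_one_of_aut (α s) (n := Nat.card S)
      (by rw [← map_pow, pow_card_eq_one', map_one]) (hexpcop _ hcop)
      (inv_mul_cancel_right _ _).symm h3 (hTbexp _)
    exact mul_inv_eq_one.1 h4
  have hfixb : ∀ e ∈ Eb, (∀ s, α s e = e) → e ∈ Zb := by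
    rintro e ⟨x, hx, hxe⟩ hall
    show (e : X ⧸ N') ∈ f.ker.map π
    rw [← show π x = (e : X ⧸ N') from hxe]
    refine hker x (hfix _ hx fun s hs => ?_)
    have h1 : π (kap (sec s) x) = 1 := by
      have h2 : π (sec s) * π x * (π (sec s))⁻¹ = π x := by
        rw [show π x = (e : X ⧸ N') from hxe, ← hαval ⟨s, hs⟩, hall]
      rw [kap_map π, kap, h2, mul_inv_cancel]
    have h2 := hNl _ ((hπ1 _).1 h1)
    rwa [kap_map f, hsec] at h2
  obtain ⟨mEx, mInj, mSurj⟩ := model_corr hCT hEDb hmeetb α hTbcop hαE hαD hfixb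
  -- the liftings
  let fT : Th →* T := (f.comp Th.subtype).codRestrict T fun x => x.2
  let fH : Hh →* H := (f.comp Hh.subtype).codRestrict H fun x => x.2
  have hfT : Function.Surjective fT := fun t =>
    ⟨⟨sec t, show f (sec (t : U)) ∈ T by rw [hsec]; exact t.2⟩, Subtype.ext (hsec t)⟩
  have hfH : Function.Surjective fH := fun t =>
    ⟨⟨sec t, show f (sec (t : U)) ∈ H by rw [hsec]; exact t.2⟩, Subtype.ext (hsec t)⟩
  let ιh : Hh →* Th := inclusion (Subgroup.comap_mono hHT)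
  let pH : Hh →* Db := (pT.comp ιh).codRestrict Db fun x => ⟨x, x.2, rfl⟩
  have hpH : Function.Surjective pH := by
    rintro ⟨y, x, hx, hxy⟩
    exact ⟨⟨x, hx⟩, Subtype.ext (Subtype.ext hxy)⟩
  have hpH1 : ∀ x : Hh, pH x = 1 ↔ (x : X) ∈ N' := fun x =>
    Subtype.ext_iff.trans (hpT1 (ιh x))
  letI := Fintype.ofFinite pT.ker
  letI := Fintype.ofFinite pH.ker
  obtain ⟨c, hc⟩ := CharExt.exists_central_hom hδ f.ker hzc
  let kT : fT.ker →* f.ker := MonoidHom.mk' (fun z => ⟨((z : Th) : X), congrArg Subtype.val z.2⟩)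
    fun _ _ => rfl
  let kH : fH.ker →* f.ker := MonoidHom.mk' (fun z => ⟨((z : Hh) : X), congrArg Subtype.val z.2⟩)
    fun _ _ => rfl
  have hLT' : Lifting fT pT (fun x : Th => δ x) (c.comp kT) :=
    ⟨hfT, hpT, fun z hz => mem_center_iff.2 fun y =>
      Subtype.ext (mem_center_iff.1 (hzc _ (congrArg Subtype.val hz)) y),
      CharDeep.irr_res_of_le (Char.isCharacter_of_irr hδ) N' Th hNT hδN,
      irr_ker N' hδN hNT pT hpT1, fun z x => hc (kT z) x⟩
  have hLH' : Lifting fH pH (fun x : Hh => δ x) (c.comp kH) :=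
    ⟨hfH, hpH, fun z hz => mem_center_iff.2 fun y =>
      Subtype.ext (mem_center_iff.1 (hzc _ (congrArg Subtype.val hz)) y),
      CharDeep.irr_res_of_le (Char.isCharacter_of_irr hδ) N' Hh hNH hδN,
      irr_ker N' hδN hNH pH hpH1, fun z x => hc (kH z) x⟩
  have hovT : ∀ F : T → ℂ,
      classInner (fun m : pT.ker => F (fT m)) (fun m : pT.ker => δ (m : Th)) =
        classInner (fun n : L => F ⟨n, (hLK.trans hKT) n.2⟩) (φ : L → ℂ) := fun F =>
    classInner_ker f N' L δ _ hmap hinj hδφ hNT pT hpT1 _ F fun x => x.2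
  have hovH : ∀ F : H → ℂ,
      classInner (fun m : pH.ker => F (fH m)) (fun m : pH.ker => δ (m : Hh)) =
        classInner (fun n : L => F ⟨n, hLH n.2⟩) (φ : L → ℂ) := fun F =>
    classInner_ker f N' L δ _ hmap hinj hδφ hNH pH hpH1 _ F fun x => x.2
  -- central scalars agree along odd multiplicities
  have hcent' : Zb ≤ center Tb := hCT.central
  have hZD : Zb ≤ Db := hmeetb ▸ inf_le_right
  have hgood : ∀ (γ : IrrCharacter Tb) (β : IrrCharacter Db),
      Glauberman.mult Db.subtype γ β ≠ 0 →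
      (Good pT (c.comp kT) (γ : Tb → ℂ) ↔ Good pH (c.comp kH) (β : Db → ℂ)) := by
    intro γ β hne
    obtain ⟨w, hwγ, hwβ⟩ := central_eq Db Zb hZD hcent' γ β (by
      show classInner (fun d => (γ : Tb → ℂ) (Db.subtype d)) _ ≠ 0
      rw [Glauberman.mult_spec]; exact_mod_cast hne)
    have hTz : ∀ z : fT.ker, pT z ∈ Zb := fun z =>
      ⟨((z : Th) : X), congrArg Subtype.val z.2, rfl⟩
    constructor
    · intro hg z y
      let z' : fT.ker := ⟨ιh z, Subtype.ext (congrArg (fun t : H => (t : U)) z.2)⟩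
      have h1 := hg z' 1
      rw [show pT z' = ((⟨pT z', hTz z'⟩ : Zb) : Tb) from rfl, hwγ] at h1
      have h2 := mul_right_cancel₀ (Char.irr_one_ne_zero γ.2) h1
      rw [show pH z = inclusion hZD ⟨pT z', hTz z'⟩ from Subtype.ext rfl, hwβ, h2]
      rfl
    · intro hg z y
      have hzH : ((z : Th) : X) ∈ Hh := by
        show f _ ∈ H
        rw [show f ((z : Th) : X) = 1 from congrArg Subtype.val z.2]; exact H.one_mem
      let z' : fH.ker := ⟨⟨_, hzH⟩, Subtype.ext (congrArg (fun t : T => (t : U)) z.2)⟩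
      have h1 := hg z' 1
      rw [show pH z' = inclusion hZD ⟨pT z, hTz z⟩ from Subtype.ext rfl, hwβ] at h1
      have h2 := mul_right_cancel₀ (Char.irr_one_ne_zero β.2) h1
      rw [show pT z = ((⟨pT z, hTz z⟩ : Zb) : Tb) from rfl, hwγ, h2]
      rfl
  -- multiplicities agree
  have hodds : ∀ (χ : IrrCharacter T) (η : IrrCharacter H) (γ : IrrCharacter Tb)
      (β : IrrCharacter Db), (∀ x, (χ : T → ℂ) (fT x) = (γ : Tb → ℂ) (pT x) * δ x) →
      (∀ x, (η : H → ℂ) (fH x) = (β : Db → ℂ) (pH x) * δ x) →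
      (OddMult hHT (χ : T → ℂ) (η : H → ℂ) ↔ Odd (Glauberman.mult Db.subtype γ β)) := by
    intro χ η γ β hχ hη
    have h1 : classInner (fun h : H => (χ : T → ℂ) ⟨h, hHT h.2⟩) (η : H → ℂ) =
        (Glauberman.mult Db.subtype γ β : ℂ) := by
      rw [← Glauberman.mult_spec]
      exact hLH'.classInner_eq (fun x => hχ (ιh x)) hη
    refine ⟨fun ⟨m, hm, ho⟩ => ?_, fun ho => ⟨_, h1, ho⟩⟩
    rw [h1, Nat.cast_inj] at hm
    exact hm ▸ ho
  -- invariance
  have hconjT : ∀ (s : S) (x : Th), sec s * x * (sec s)⁻¹ ∈ Th := fun s x =>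
    (inferInstance : Th.Normal).conj_mem _ x.2 _
  have hαpT : ∀ (s : S) (x : Th), pT ⟨_, hconjT s x⟩ = α s (pT x) := fun s x => Subtype.ext (by
    rw [hpTval, hαval, map_mul, map_mul, map_inv]; rfl)
  have hSinv : ∀ (χ : IrrCharacter T) (γ : IrrCharacter Tb), Good pT (c.comp kT) (γ : Tb → ℂ) →
      (∀ x, (χ : T → ℂ) (fT x) = (γ : Tb → ℂ) (pT x) * δ x) →
      (SInv S T (χ : T → ℂ) ↔ ∀ s g, (γ : Tb → ℂ) (α s g) = (γ : Tb → ℂ) g) := by
    intro χ γ hg hχ
    constructor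
    · intro hinv s
      let γ' : IrrCharacter Tb := ⟨fun y => (γ : Tb → ℂ) (α s y),
        Char.isIrrCharacter_comp_mulEquiv γ.2 (α s)⟩
      have h1 : ∀ x, (χ : T → ℂ) (fT x) = (γ' : Tb → ℂ) (pT x) * δ x := by
        intro x
        rw [← hinv s s.2 (fT x) (fT ⟨_, hconjT s x⟩) (by
          show f (sec (s : U) * x * (sec (s : U))⁻¹) = s * f x * (s : U)⁻¹
          rw [map_mul, map_mul, map_inv, hsec]), hχ, hαpT]
        exact congrArg (fun d => _ * d) (Char.irr_isClassFunction hδ (x : X) _)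
      exact fun g => congrFun (congrArg Subtype.val (hLT'.unique γ γ' hχ h1)).symm g
    · intro hinv s hs g g' hgg
      obtain ⟨x, rfl⟩ := hfT g
      rw [show g' = fT ⟨_, hconjT ⟨s, hs⟩ x⟩ from Subtype.ext (by
        show (g' : U) = f (sec s * x * (sec s)⁻¹)
        rw [hgg, map_mul, map_mul, map_inv, hsec]; rfl), hχ, hχ, hαpT, hinv]
      exact congrArg (fun d => _ * d) (Char.irr_isClassFunction hδ (x : X) _)
  have hdownT : ∀ χ : IrrCharacter T, Over (hLK.trans hKT) (χ : T → ℂ) (φ : L → ℂ) →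
      ∃ γ : IrrCharacter Tb, Good pT (c.comp kT) (γ : Tb → ℂ) ∧
        ∀ x, (χ : T → ℂ) (fT x) = (γ : Tb → ℂ) (pT x) * δ x := fun χ hχ =>
    hLT'.down χ (by rw [hovT]; exact hχ)
  have hdownH : ∀ η : IrrCharacter H, Over hLH (η : H → ℂ) (φ : L → ℂ) →
      ∃ β : IrrCharacter Db, Good pH (c.comp kH) (β : Db → ℂ) ∧
        ∀ x, (η : H → ℂ) (fH x) = (β : Db → ℂ) (pH x) * δ x := fun η hη =>
    hLH'.down η (by rw [hovH]; exact hη)
  refine ⟨fun η hη => ?_, ⟨fun χ hχ => ?_, fun χ χ' hχ hχ' η hη ho ho' => ?_, fun η hη => ?_⟩⟩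
  · obtain ⟨β, hgb, hβ⟩ := hdownH η hη
    intro s hs g g' hgg
    obtain ⟨x, rfl⟩ := hfH g
    have hx' : sec s * x * (sec s)⁻¹ ∈ Hh := by
      show f _ ∈ H
      rw [map_mul, map_mul, map_inv, hsec]
      exact hgg ▸ g'.2
    rw [show g' = fH ⟨_, hx'⟩ from Subtype.ext (by
      show (g' : U) = f (sec s * x * (sec s)⁻¹)
      rw [hgg, map_mul, map_mul, map_inv, hsec]; rfl), hβ, hβ,
      show pH ⟨_, hx'⟩ = pH x from Subtype.ext ((hαpT ⟨s, hs⟩ (ιh x)).trans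
        (hαD _ _ (pH x).2))]
    exact congrArg (fun d => _ * d) (Char.irr_isClassFunction hδ (x : X) _)
  · obtain ⟨γ, hgg, hγ⟩ := hdownT χ hχ.2
    obtain ⟨β, hβ⟩ := mEx γ ((hSinv χ γ hgg hγ).1 hχ.1)
    have hb := (hβ β).2 rfl
    have hgb := (hgood γ β hb.pos.ne').1 hgg
    obtain ⟨η, hη⟩ := hLH'.up β.2 hgb
    refine ⟨η, ?_, (hodds χ η γ β hγ hη).2 hb, fun η' hη' ho => ?_⟩
    · show classInner _ _ ≠ 0
      rw [← hovH]; exact hLH'.over β hη
    obtain ⟨β', -, hβ'⟩ := hdownH η' hη'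
    obtain rfl := (hβ β').1 ((hodds χ η' γ β' hγ hβ').1 ho)
    refine Subtype.ext (funext fun h => ?_)
    obtain ⟨x, rfl⟩ := hfH h
    rw [hη, hβ']
  · obtain ⟨γ, hgg, hγ⟩ := hdownT χ hχ.2
    obtain ⟨γ', hgg', hγ'⟩ := hdownT χ' hχ'.2
    obtain ⟨β, -, hβ⟩ := hdownH η hη
    obtain rfl := mInj γ γ' ((hSinv χ γ hgg hγ).1 hχ.1) ((hSinv χ' γ' hgg' hγ').1 hχ'.1) β
      ((hodds χ η γ β hγ hβ).1 ho) ((hodds χ' η γ' β hγ' hβ).1 ho')
    refine Subtype.ext (funext fun t => ?_)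
    obtain ⟨x, rfl⟩ := hfT t
    rw [hγ, hγ']
  · obtain ⟨β, hgb, hβ⟩ := hdownH η hη
    obtain ⟨γ, hinv, hm⟩ := mSurj β
    have hgg := (hgood γ β hm.pos.ne').2 hgb
    obtain ⟨χ, hχ⟩ := hLT'.up γ.2 hgg
    refine ⟨χ, ⟨(hSinv χ γ hgg hχ).2 hinv, ?_⟩, (hodds χ η γ β hχ hβ).2 hm⟩
    show classInner _ _ ≠ 0
    rw [← hovT]; exact hLT'.over γ hχ

end Cfsg.Agent.IsaacsCorr
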