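import Cfsg.Agent.IsaacsCorr.Clifford
import Cfsg.Agent.IsaacsCorr.TLevel
import Cfsg.Agent.Coprime.Action

/-!
# The correspondence over one invariant character of `L`, in the whole group
-/

set_option autoImplicit false
set_option linter.style.haveILetI false
set_option linter.unusedSectionVars false

namespace Cfsg.Agent.IsaacsCorr

open Cfsg Cfsg.Agent Subgroup
open scoped Classical

universe u

variable {Γ : Type u} [Group Γ] [Fintype Γ]

/-- The standing configuration. -/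
structure Config (G S K L H : Subgroup Γ) : Prop where
  top : G ⊔ S = ⊤
  LK : L ≤ K
  KG : K ≤ G
  HG : H ≤ G
  LH : L ≤ H
  KH : K ⊔ H = G
  meet : K ⊓ H = L
  ab : ∀ a ∈ K, ∀ b ∈ K, kap a b ∈ L
  odd : Odd (Nat.card G)
  cop : (Nat.card G).Coprime (Nat.card S)
  solv : Group.IsSolvable G
  fixH : ∀ s ∈ S, ∀ x ∈ H, s * x * s⁻¹ * x⁻¹ ∈ L
  fix : ∀ k ∈ K, (∀ s ∈ S, s * k * s⁻¹ * k⁻¹ ∈ L) → k ∈ L

variable {G S K L H : Subgroup Γ} [G.Normal] [hK : K.Normal] [hL : L.Normal] [Fintype L]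

theorem Config.conjS_mem (h : Config G S K L H) {s : Γ} (hs : s ∈ S) {x : Γ} (hx : x ∈ H) :
    s * x * s⁻¹ ∈ H := by
  have := H.mul_mem (h.LH (h.fixH s hs x hx)) hx
  rwa [inv_mul_cancel_right] at this

theorem Config.conjH (h : Config G S K L H) (φ : IrrCharacter L) (hφ : SInv S L (φ : L → ℂ))
    {x : Γ} (hx : x ∈ H) : SInv S L (CharInd.conjChar L x (φ : L → ℂ)) := by
  rw [sinv_iff] at hφ ⊢
  intro s hs
  rw [CharExt.mem_inertia, ← CharInd.conjChar_mul,
    show x * s = (s * x * s⁻¹ * x⁻¹)⁻¹ * (s * x) by group, CharInd.conjChar_mul,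
    CharInd.conjChar_isClassFunction_mem L (Char.irr_isClassFunction φ.2)
      ⟨_, L.inv_mem (h.fixH s hs x hx)⟩, CharInd.conjChar_mul,
    CharExt.mem_inertia.1 (hφ s hs)]

/-- An element of `K` moving an invariant character to an invariant one stabilises it. -/
theorem Config.mem_inertia (h : Config G S K L H) (φ : IrrCharacter L)
    (hφ : SInv S L (φ : L → ℂ)) {k : Γ} (hk : k ∈ K)
    (hφk : SInv S L (CharInd.conjChar L k (φ : L → ℂ))) :
    k ∈ CharExt.inertia L (φ : L → ℂ) := by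
  rw [sinv_iff] at hφ hφk
  set I := CharExt.inertia L (φ : L → ℂ)
  have hLI : L ≤ I := CharExt.le_inertia L (Char.irr_isClassFunction φ.2)
  haveI := h.solv
  have hIK : I ⊓ K ≤ G := inf_le_right.trans h.KG
  have hnorm : S ≤ normalizer ((I ⊓ K : Subgroup Γ) : Set Γ) := fun s hs =>
    Subgroup.mem_normalizer_iff.2 fun y => by
      show y ∈ I ⊓ K ↔ s * y * s⁻¹ ∈ I ⊓ K
      rw [Subgroup.mem_inf, Subgroup.mem_inf, Subgroup.mul_mem_cancel_right _ (inv_mem (hφ s hs)),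
        Subgroup.mul_mem_cancel_left _ (hφ s hs)]
      refine and_congr_right fun _ => ⟨fun hy => hK.conj_mem y hy s, fun hy => ?_⟩
      simpa [mul_assoc] using hK.conj_mem _ hy s⁻¹
  obtain ⟨c, ⟨hcK, hc⟩, hkc⟩ := Coprime.exists_fixed_mem_coset hnorm
    (h.cop.symm.coprime_dvd_right (card_dvd_of_le hIK))
    (Or.inr (Coprime.isSolvable_of_le hIK h.solv)) inf_le_right hk fun s hs => by
      have h1 : k * s * k⁻¹ ∈ I := by
        rw [CharExt.mem_inertia, CharInd.conjChar_mul, CharInd.conjChar_mul,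
          CharExt.mem_inertia.1 (hφk s hs), ← CharInd.conjChar_mul, mul_inv_cancel,
          CharInd.conjChar_one]
      have h2 : k * s * k⁻¹ * s⁻¹ ∈ I := I.mul_mem h1 (I.inv_mem (hφ s hs))
      have h3 : k * s * k⁻¹ * s⁻¹ ∈ K := by
        have := K.mul_mem hk (hK.conj_mem _ (K.inv_mem hk) s)
        simpa [mul_assoc] using this
      have h4 : k⁻¹ * s * k * s⁻¹ ∈ K := by
        simpa [mul_assoc] using K.mul_mem (K.inv_mem hk) (hK.conj_mem _ hk s)
      -- the two commutators differ by a conjugation by `k`, trivial modulo `L`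
      have h5 : kap k⁻¹ (k * s * k⁻¹ * s⁻¹)⁻¹ ∈ L := h.ab _ (K.inv_mem hk) _ (K.inv_mem h3)
      refine ⟨?_, h4⟩
      have e : k⁻¹ * s * k * s⁻¹ = kap k⁻¹ (k * s * k⁻¹ * s⁻¹)⁻¹ * (k * s * k⁻¹ * s⁻¹)⁻¹ := by
        simp [kap, mul_assoc]
      rw [e]
      exact I.mul_mem (hLI h5) (I.inv_mem h2)
  have hcL : c ∈ L := h.fix c hcK fun s hs => by
    rw [Subgroup.mem_centralizer_iff.1 hc s hs, mul_inv_cancel_right, mul_inv_cancel]
    exact L.one_mem
  have := I.mul_mem (hLI hcL) (I.inv_mem hkc.1)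
  simpa using this

/-- The two ways of viewing an intersection as a subgroup. -/
def swap (A B : Subgroup Γ) : A.subgroupOf B ≃* B.subgroupOf A where
  toFun x := ⟨⟨(x : B), x.2⟩, (x : B).2⟩
  invFun x := ⟨⟨(x : A), x.2⟩, (x : A).2⟩
  left_inv _ := rfl
  right_inv _ := rfl
  map_mul' _ _ := rfl

theorem swap_val {A B : Subgroup Γ} (x : A.subgroupOf B) :
    ((swap A B x : A) : Γ) = ((x : B) : Γ) := rfl

variable [Fintype G] [Fintype H]

/-- The correspondence over an invariant `φ`. -/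
theorem Config.step (h : Config G S K L H) (φ : IrrCharacter L) (hφ : SInv S L (φ : L → ℂ)) :
    OddCorr h.HG (fun χ => SInv S G χ ∧ Over (h.LK.trans h.KG) χ (φ : L → ℂ))
      (fun ψ => SInv S H ψ ∧ Over h.LH ψ (φ : L → ℂ)) := by
  set I := CharExt.inertia L (φ : L → ℂ) with hI
  have hLI : L ≤ I := CharExt.le_inertia L (Char.irr_isClassFunction φ.2)
  have hSI : ∀ s ∈ S, s ∈ I := (sinv_iff L (φ : L → ℂ)).1 hφ
  have hLG : L ≤ G := h.LK.trans h.KG
  -- the inside of the inertia group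
  haveI : (G.subgroupOf I).Normal := Subgroup.normal_subgroupOf
  haveI : (K.subgroupOf I).Normal := Subgroup.normal_subgroupOf
  haveI : (L.subgroupOf I).Normal := Subgroup.normal_subgroupOf
  letI := Fintype.ofFinite I
  letI := Fintype.ofFinite (G.subgroupOf I)
  letI := Fintype.ofFinite (H.subgroupOf I)
  letI := Fintype.ofFinite (L.subgroupOf I)
  letI := Fintype.ofFinite (stab L φ G)
  letI := Fintype.ofFinite (stab L φ H)
  let eL : L.subgroupOf I ≃* L := Subgroup.subgroupOfEquivOfLe hLI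
  let φ' : IrrCharacter (L.subgroupOf I) :=
    ⟨fun n => (φ : L → ℂ) (eL n), Char.isIrrCharacter_comp_mulEquiv φ.2 eL⟩
  have hsplit : K.subgroupOf I ⊔ H.subgroupOf I = G.subgroupOf I := by
    refine le_antisymm (sup_le (fun x hx => h.KG hx) (fun x hx => h.HG hx)) ?_
    rintro ⟨x, hxI⟩ hx
    obtain ⟨k, hk, y, hy, rfl⟩ := Subgroup.mem_sup_of_normal_left.1
      (h.KH.symm ▸ hx : x ∈ K ⊔ H)
    have hkinv : SInv S L (CharInd.conjChar L k (φ : L → ℂ)) := by
      have e : CharInd.conjChar L k (φ : L → ℂ) = CharInd.conjChar L y⁻¹ (φ : L → ℂ) := by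
        conv_rhs => rw [← CharExt.mem_inertia.1 hxI]
        rw [← CharInd.conjChar_mul, mul_inv_cancel_right]
      rw [e]; exact h.conjH φ hφ (H.inv_mem hy)
    have hkI := h.mem_inertia φ hφ hk hkinv
    have hyI : y ∈ I := (Subgroup.mul_mem_cancel_left _ hkI).1 hxI
    rw [show (⟨k * y, hxI⟩ : I) = ⟨k, hkI⟩ * ⟨y, hyI⟩ from rfl]
    exact Subgroup.mul_mem_sup hk hy
  obtain ⟨hauto, hcorr⟩ := tlevel (G.subgroupOf I) (H.subgroupOf I) (K.subgroupOf I)
    (L.subgroupOf I) (S.subgroupOf I) (fun x hx => h.LK hx) (fun x hx => h.KG hx)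
    (fun x hx => h.HG hx) (fun x hx => h.LH hx) hsplit
    (by ext x; exact ⟨fun hx => h.meet.le hx, fun hx => h.meet.ge hx⟩)
    (fun a ha b hb => by
      show ((kap a b : I) : Γ) ∈ L
      exact h.ab (a : Γ) ha (b : Γ) hb)
    (h.odd.of_dvd_nat (Subgroup.card_comap_dvd_of_injective G I.subtype I.subtype_injective))
    ((h.cop.coprime_dvd_left
      (Subgroup.card_comap_dvd_of_injective G I.subtype I.subtype_injective)).coprime_dvd_right
      (Subgroup.card_comap_dvd_of_injective S I.subtype I.subtype_injective))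
    (fun s hs x hx => h.fixH (s : Γ) hs (x : Γ) hx)
    (fun k hk hall => h.fix (k : Γ) hk fun s hs => hall ⟨s, hSI s hs⟩ hs) φ'
    (fun x n => congrFun (CharExt.mem_inertia.1 x.2) (eL n))
  -- transport between the two views of the inertia parts
  have hov : ∀ (A : Subgroup Γ) [Fintype A] (hLA : L ≤ A) [Fintype (stab L φ A)]
      (f : stab L φ A → ℂ) (hle : L.subgroupOf I ≤ A.subgroupOf I),
      Over hle (fun x => f (swap A I x)) (φ' : L.subgroupOf I → ℂ) ↔ OverT L φ A hLA f := by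
    intro A _ hLA _ f hle
    unfold Over OverT
    rw [← classInner_comp_mulEquiv eL]
    rfl
  have hsinv : ∀ (A : Subgroup Γ) [Fintype A] [Fintype (stab L φ A)] (f : stab L φ A → ℂ),
      SInv (S.subgroupOf I) (A.subgroupOf I) (fun x => f (swap A I x)) ↔ SInvT L φ A S f := by
    intro A _ _ f
    constructor
    · intro hh s hs x x' hxx
      exact hh ⟨s, hSI s hs⟩ hs ((swap A I).symm x) ((swap A I).symm x') (Subtype.ext hxx)
    · intro hh s hs x x' hxx
      exact hh s hs _ _ (congrArg Subtype.val hxx)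
  let mkT : ∀ (A : Subgroup Γ), IrrCharacter (stab L φ A) → IrrCharacter (A.subgroupOf I) :=
    fun A ξ => ⟨fun x => (ξ : stab L φ A → ℂ) (swap A I x),
      Char.isIrrCharacter_comp_mulEquiv ξ.2 (swap A I)⟩
  let unT : ∀ (A : Subgroup Γ), IrrCharacter (A.subgroupOf I) → IrrCharacter (stab L φ A) :=
    fun A ξ => ⟨fun x => (ξ : A.subgroupOf I → ℂ) ((swap A I).symm x),
      Char.isIrrCharacter_comp_mulEquiv ξ.2 (swap A I).symm⟩
  have hmk : ∀ A ξ, mkT A (unT A ξ) = ξ := fun A ξ => rfl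
  have hsG : ∀ s ∈ S, ∀ x ∈ G, s * x * s⁻¹ ∈ G := fun s _ x hx =>
    (inferInstance : G.Normal).conj_mem x hx s
  have hsH : ∀ s ∈ S, ∀ x ∈ H, s * x * s⁻¹ ∈ H := fun s hs x hx => h.conjS_mem hs hx
  let j : stab L φ H →* stab L φ G :=
    MonoidHom.mk' (fun x => ⟨⟨(x : H), h.HG (x : H).2⟩, x.2⟩) fun _ _ => rfl
  have hodd : ∀ (ξ : IrrCharacter (stab L φ G)) (η : IrrCharacter (stab L φ H)),
      OverT L φ G hLG (ξ : stab L φ G → ℂ) → OverT L φ H h.LH (η : stab L φ H → ℂ) →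
      (OddMult h.HG (indFun (stab L φ G) (ξ : stab L φ G → ℂ))
          (indFun (stab L φ H) (η : stab L φ H → ℂ)) ↔
        OddMult (fun x hx => h.HG hx : H.subgroupOf I ≤ G.subgroupOf I)
          (mkT G ξ : G.subgroupOf I → ℂ) (mkT H η : H.subgroupOf I → ℂ)) := by
    intro ξ η hξ hη
    obtain ⟨hindirr, -, D, hD, hDeq, hD0⟩ := clifford_ind L φ G hLG ξ.2 hξ
    have hcl : IsClassFunction H
        (fun x : H => indFun (stab L φ G) (ξ : stab L φ G → ℂ) ⟨x, h.HG x.2⟩) := fun x y =>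
      CharInd.indFun_isClassFunction _ _ (inclusion h.HG x) (inclusion h.HG y)
    have e1 : classInner
        (fun x : H => indFun (stab L φ G) (ξ : stab L φ G → ℂ) ⟨x, h.HG x.2⟩)
        (indFun (stab L φ H) (η : stab L φ H → ℂ)) =
        classInner (fun x => (mkT G ξ : G.subgroupOf I → ℂ)
          (inclusion (fun x hx => h.HG hx : H.subgroupOf I ≤ G.subgroupOf I) x))
          (mkT H η : H.subgroupOf I → ℂ) := by
      rw [CharInd.classInner_indFun_right _ _ hcl]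
      have e2 : (fun x : stab L φ H => indFun (stab L φ G) (ξ : stab L φ G → ℂ)
          ⟨(x : H), h.HG (x : H).2⟩) =
          (fun x => (ξ : stab L φ G → ℂ) (j x)) + fun x => D (j x) := funext fun x => hDeq (j x)
      rw [e2, Char.classInner_add_left]
      let i : L →* stab L φ H :=
        MonoidHom.mk' (fun n => ⟨⟨n, h.LH n.2⟩, hLI n.2⟩) fun _ _ => rfl
      rw [classInner_eq_zero_of_res i (CharInd.isCharacter_comp j hD) η φ hD0 hη, add_zero]
      exact (classInner_comp_mulEquiv (G := stab L φ H) (swap H I)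
        (fun x => (ξ : stab L φ G → ℂ) (j x)) (η : stab L φ H → ℂ)).symm
    exact ⟨fun ⟨m, hm, ho⟩ => ⟨m, e1.symm.trans hm, ho⟩,
      fun ⟨m, hm, ho⟩ => ⟨m, e1.trans hm, ho⟩⟩
  refine ⟨fun χ hχ => ?_, fun χ χ' hχ hχ' ψ hψ ho ho' => ?_, fun ψ hψ => ?_⟩
  · obtain ⟨ξ, hξ, hξind⟩ := clifford_surj L φ G hLG χ hχ.2
    have hξS : SInvT L φ G S (ξ : stab L φ G → ℂ) :=
      (sinv_ind L φ G hLG hsG hφ ξ hξ).1 (hξind.symm ▸ hχ.1)
    obtain ⟨η', hη', hmo, huniq⟩ := hcorr.exists_unique (mkT G ξ)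
      ⟨(hsinv G _).2 hξS, (hov G hLG _ _).2 hξ⟩
    have hη : OverT L φ H h.LH (unT H η' : stab L φ H → ℂ) :=
      (hov H h.LH _ _).1 hη'
    have hηS : SInvT L φ H S (unT H η' : stab L φ H → ℂ) := (hsinv H _).1 (hauto η' hη')
    obtain ⟨hirr, hover, -⟩ := clifford_ind L φ H h.LH (unT H η').2 hη
    refine ⟨⟨_, hirr⟩, ⟨(sinv_ind L φ H h.LH hsH hφ _ hη).2 hηS, hover⟩,
      hξind ▸ (hodd ξ (unT H η') hξ hη).2 hmo, fun ψ hψ ho => ?_⟩
    obtain ⟨η, hηo, hηind⟩ := clifford_surj L φ H h.LH ψ hψ.2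
    have h1 := huniq (mkT H η) ((hov H h.LH _ _).2 hηo)
      ((hodd ξ η hξ hηo).1 (by rw [hξind, hηind]; exact ho))
    apply Subtype.ext
    show (ψ : H → ℂ) = indFun (stab L φ H) (unT H η' : stab L φ H → ℂ)
    rw [← hηind, ← congrArg (unT H) h1]
    rfl
  · obtain ⟨ξ, hξ, hξind⟩ := clifford_surj L φ G hLG χ hχ.2
    obtain ⟨ξ', hξ', hξind'⟩ := clifford_surj L φ G hLG χ' hχ'.2
    obtain ⟨η, hη, hηind⟩ := clifford_surj L φ H h.LH ψ hψ.2
    have h1 := hcorr.injective (mkT G ξ) (mkT G ξ')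
      ⟨(hsinv G _).2 ((sinv_ind L φ G hLG hsG hφ ξ hξ).1 (hξind.symm ▸ hχ.1)),
        (hov G hLG _ _).2 hξ⟩
      ⟨(hsinv G _).2 ((sinv_ind L φ G hLG hsG hφ ξ' hξ').1 (hξind'.symm ▸ hχ'.1)),
        (hov G hLG _ _).2 hξ'⟩
      (mkT H η) ((hov H h.LH _ _).2 hη)
      ((hodd ξ η hξ hη).1 (by rw [hξind, hηind]; exact ho))
      ((hodd ξ' η hξ' hη).1 (by rw [hξind', hηind]; exact ho'))
    have h2 : ξ = ξ' := congrArg (unT G) h1
    exact Subtype.ext (hξind.symm.trans (h2 ▸ hξind'))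
  · obtain ⟨η, hη, hηind⟩ := clifford_surj L φ H h.LH ψ hψ.2
    obtain ⟨ξ', ⟨hξ'S, hξ'⟩, hmo⟩ := hcorr.surjective (mkT H η) ((hov H h.LH _ _).2 hη)
    have hξ : OverT L φ G hLG (unT G ξ' : stab L φ G → ℂ) := (hov G hLG _ _).1 hξ'
    obtain ⟨hirr, hover, -⟩ := clifford_ind L φ G hLG (unT G ξ').2 hξ
    refine ⟨⟨_, hirr⟩, ⟨(sinv_ind L φ G hLG hsG hφ _ hξ).2 ((hsinv G _).1 hξ'S), hover⟩, ?_⟩
    rw [← hηind]
    exact (hodd (unT G ξ') η hξ hη).2 hmo

end Cfsg.Agent.IsaacsCorr
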